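import Cfsg.Agent.Lib.SUStem.BaseCore
import Cfsg.Agent.Lib.Small.F9
import Cfsg.Agent.Lib.SUStem.Cert.U33p2
import Cfsg.Agent.Lib.SUStem.Cert.U33p3

/-!
# The stem extensions of `SU_3(3)` are trivial: a kernel-checked computation of stable elements
-/

set_option autoImplicit false
set_option maxRecDepth 100000
set_option linter.unusedSectionVars false
set_option linter.unusedVariables false

namespace Cfsg.Agent.Lib.SUStem.Base33

open scoped Matrix
open Subgroup Cfsg.Agent.Lib.Schur.Stem Cfsg.Agent.Lib.Schur.Local Cfsg.Agent.Lib.Schur.PcPerm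
open _root_.Cfsg.Agent.Lib.PermComp
open Cfsg.Agent.Lib.SUStem.BaseCore Cfsg.Agent.Lib.SUStem.Cert
open Cfsg.Agent.Lib.Small.F9

/-- The field. -/
abbrev K : Type := Fnine

/-- The vectors. -/
abbrev V : Type := Fin 3 → K

/-- The number of a field element. -/
def codeK (x : K) : ℕ := x.re.val + 3 * x.im.val

/-- The field element of a number. -/
def decK (i : ℕ) : K := ⟨((i % 3 : ℕ) : ZMod 3), ((i / 3 % 3 : ℕ) : ZMod 3)⟩

theorem decK_codeK : ∀ a : K, decK (codeK a) = a := by decide +kernel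

theorem codeK_le : ∀ a : K, codeK a ≤ 8 := by decide +kernel

/-- The number of a vector. -/
def enc (v : V) : ℕ :=
  codeK (v 0) + 9 * codeK (v 1) + 81 * codeK (v 2)

/-- The power of `9` at an index. -/
def pw (j : Fin 3) : ℕ := 9 ^ j.val

/-- The vector of a number. -/
def dec (i : ℕ) : V := fun x => decK (i / pw x)

theorem enc_lt (v : V) : enc v < 729 := by
  have h0 := codeK_le (v 0)
  have h1 := codeK_le (v 1)
  have h2 := codeK_le (v 2)
  unfold enc
  omega

theorem enc_dec : ∀ i : Fin 729, enc (dec i.1) = i.1 := by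
  decide +kernel

theorem card_V : Fintype.card V = 729 := by
  simp [Fnine.card_eq]

/-- The numbering of the vectors. -/
noncomputable def e : V ≃ Fin 729 :=
  Equiv.ofBijective (fun v => ⟨enc v, enc_lt v⟩)
    ((Fintype.bijective_iff_surjective_and_card _).2
      ⟨fun i => ⟨dec i.1, Fin.ext (enc_dec i)⟩, by rw [card_V]; simp⟩)

theorem e_coe (v : V) : ((e v : Fin 729) : ℕ) = enc v := rfl

theorem dec_enc (v : V) : dec (enc v) = v := by
  have h : e (dec (enc v)) = e v := Fin.ext (by rw [e_coe]; exact enc_dec ⟨enc v, enc_lt v⟩)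
  exact e.injective h

/-- The matrix of a code: its columns are the images of the basis vectors. -/
def Mc (c : ℕ) : Matrix (Fin 3) (Fin 3) K := Matrix.of fun i j => dec (Core.app 10 1023 c (pw j)) i

/-- The check that a code is the action of a special unitary matrix. -/
def checkCode (c : ℕ) : Bool :=
  decide ((Mc c).det = 1) && decide ((Mc c)ᵀ * (Mc c).map (fun x => x ^ 3) = 1) &&
    (List.range 729).all fun i => Nat.beq (Core.app 10 1023 c i) (enc (Mc c *ᵥ dec i))

/-- The permutation group. -/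
noncomputable abbrev G : Subgroup (Equiv.Perm V) := (rho : ↥(Cfsg.SU 3 K 3) →* Equiv.Perm V).range

theorem hK : Fintype.card K = 3 ^ 2 := Fnine.card_eq

theorem rep_of_check {c : ℕ} (h : checkCode c = true) : ∃ g ∈ G, Core.Rep 10 1023 e c g := by
  simp only [checkCode, Bool.and_eq_true, decide_eq_true_eq, List.all_eq_true, List.mem_range] at h
  obtain ⟨⟨h1, h2⟩, h3⟩ := h
  refine rep_of_matrix hK (dec := dec) (fun v => dec_enc v) (Mc c) h1 h2 fun i hi => ?_
  rw [e_coe]
  exact Nat.eq_of_beq_eq_true (h3 i hi)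

theorem card_G : Nat.card G = 6048 := by
  have h1 : Nat.card G = Nat.card ↥(Cfsg.SU 3 K 3) :=
    (Nat.card_congr (MonoidHom.ofInjective rho_inj).toEquiv).symm
  have h2 := Cfsg.Agent.Lib.Classical.HermOrders.card_SU (F := K) (q := 3) hK 3 (by norm_num)
  rw [h1]
  have h3 : (3 ^ (3 * (3 - 1) / 2) * ∏ i ∈ Finset.range 3, (if Even i then 3 ^ (i + 1) + 1 else 3 ^ (i + 1) - 1) : ℕ) =
      4 * 6048 := by decide +kernel
  rw [h3] at h2
  omega

theorem mem2 : (U33p2.codes ++ U33p2.conj).all checkCode = true := by decide +kernel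
theorem mem3 : (U33p3.codes ++ U33p3.conj).all checkCode = true := by decide +kernel

theorem mem2' {x : ℕ} (h : x ∈ U33p2.codes ++ U33p2.conj) : ∃ g ∈ G, Core.Rep 10 1023 e x g :=
  rep_of_check (List.all_eq_true.1 mem2 x h)

theorem mem3' {x : ℕ} (h : x ∈ U33p3.codes ++ U33p3.conj) : ∃ g ∈ G, Core.Rep 10 1023 e x g :=
  rep_of_check (List.all_eq_true.1 mem3 x h)

theorem not_sq_dvd {p : ℕ} (hp : p.Prime) (h2 : p ≠ 2) (h3 : p ≠ 3) : ¬ p ^ 2 ∣ 6048 := by
  intro h
  have hc : Nat.Coprime (p ^ 2) (2 ^ 5 * 3 ^ 3) := by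
    apply Nat.Coprime.pow_left
    apply Nat.Coprime.mul_right
    · exact Nat.Coprime.pow_right _ ((Nat.coprime_primes hp Nat.prime_two).2 h2)
    · exact Nat.Coprime.pow_right _ ((Nat.coprime_primes hp Nat.prime_three).2 h3)
  have h4 : p ^ 2 ∣ 7 := by
    have : 6048 = (2 ^ 5 * 3 ^ 3) * 7 := by norm_num
    rw [this] at h
    exact hc.dvd_of_dvd_mul_left h
  have h5 := Nat.le_of_dvd (by norm_num) h4
  have h6 : p ≤ 2 := by nlinarith
  have h7 := hp.two_le
  omega

universe u

theorem bound (Γ : Type u) [Group Γ] [Finite Γ] (σ : Γ →* G) (hσ : Cfsg.IsStemExtension σ) :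
    Nat.card σ.ker ∣ 1 := by
  refine card_ker_dvd_of_sylow hσ 1 (by norm_num) ?_
  intro p _ P
  by_cases hp2 : p = 2
  · subst hp2
    exact card_ker_dvd (n := 729) (w := 10) (mask := 1023) (idc := U33p2.cidc) (e := e) (p := 2) G
      U33p2.C U33p2.check_ok U33p2.codes U33p2.conj U33p2.base U33p2.ord U33p2.chk_ok
      (fun x hx => mem2' (List.mem_append_left _ hx)) (fun x hx => mem2' (List.mem_append_right _ hx))
      rfl hσ (m := 189) (by rw [card_G]; decide +kernel) (by norm_num) P
  by_cases hp3 : p = 3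
  · subst hp3
    exact card_ker_dvd (n := 729) (w := 10) (mask := 1023) (idc := U33p3.cidc) (e := e) (p := 3) G
      U33p3.C U33p3.check_ok U33p3.codes U33p3.conj U33p3.base U33p3.ord U33p3.chk_ok
      (fun x hx => mem3' (List.mem_append_left _ hx)) (fun x hx => mem3' (List.mem_append_right _ hx))
      rfl hσ (m := 224) (by rw [card_G]; decide +kernel) (by norm_num) P
  · refine card_ker_sylow_of_not_sq_dvd hσ ?_ P
    rw [card_G]
    exact not_sq_dvd Fact.out hp2 hp3

end Cfsg.Agent.Lib.SUStem.Base33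

namespace Cfsg.Agent.Lib.SUStem

universe u

/-- All the finite stem extensions of `SU_3(3)` are trivial. -/
theorem stemSU3_three {F : Type u} [Field F] [Fintype F] (hF3 : Fintype.card F = 3 ^ 2) : StemTriv ↥(Cfsg.SU 3 F 3) :=
  BaseCore.stemTriv_of_bound (K := Base33.K) (by rw [hF3, Base33.hK]) fun Γ _ _ σ hσ => Base33.bound Γ σ hσ

end Cfsg.Agent.Lib.SUStem
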