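import Cfsg.Agent.Lib.PresU.OInj
import Cfsg.Agent.Lib.Schur.SpStem.Block

/-!
# The block embedding `GO σ κ → GO σ ι` along an injective map `κ → ι`
-/

set_option autoImplicit false
set_option linter.unusedSectionVars false
set_option linter.unusedVariables false
set_option linter.unusedSimpArgs false

namespace Cfsg.Agent.Lib.SUStem

open Cfsg Subgroup Matrix
open Cfsg.Agent.Lib.PresU Cfsg.Agent.Lib.PresSp.Mono Cfsg.Agent.Lib.PresSLn.TwoGen Cfsg.Agent.Lib.Schur.SpStem
open Cfsg.Agent.Lib.PresSU3 (GG)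

local notation "PpM" => Cfsg.Agent.Lib.Schur.SpStem.Pp

section Bk

variable {κ ι : Type*} [Fintype κ] [DecidableEq κ] [Fintype ι] [DecidableEq ι] {K : Type*} [Field K] {σ : K →+* K}
  {e : κ → ι}

/-- The index map. -/
def eo (e : κ → ι) : Io κ → Io ι := Sum.map (Sum.map e e) id

lemma eo_inj (he : Function.Injective e) : Function.Injective (eo e) :=
  (he.sumMap he).sumMap Function.injective_id

lemma eo_emb (i : κ) (c : Fin 3) : eo e (emb i c) = emb (e i) c := by
  fin_cases c <;> rfl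

lemma Em_map {A B : Type*} [Fintype A] [DecidableEq A] [Fintype B] [DecidableEq B] (f : A → B) :
    (Em K f).map σ = Em K f := by
  ext r c
  simp only [map_apply, Em_apply]
  split_ifs <;> simp

lemma Emt_map {A B : Type*} [Fintype A] [DecidableEq A] [Fintype B] [DecidableEq B] (f : A → B) :
    ((Em K f)ᵀ).map σ = (Em K f)ᵀ := by
  ext r c
  simp only [map_apply, transpose_apply, Em_apply]
  split_ifs <;> simp

lemma Pp_map {A B : Type*} [Fintype A] [DecidableEq A] [Fintype B] [DecidableEq B] (f : A → B) :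
    (PpM K f).map σ = PpM K f := by
  rw [Cfsg.Agent.Lib.Schur.SpStem.Pp, Matrix.map_sub _ (map_sub σ), Matrix.map_mul, Em_map, Emt_map, Matrix.map_one _ (map_zero σ) (map_one σ)]

lemma pad_map {A B : Type*} [Fintype A] [DecidableEq A] [Fintype B] [DecidableEq B] (f : A → B) (M : Matrix A A K) :
    (pad K f M).map σ = pad K f (M.map σ) := by
  rw [pad, pad, Matrix.map_add _ (map_add σ), Matrix.map_mul, Matrix.map_mul, Em_map, Emt_map, Pp_map]

lemma Em_eo : Em K (eo e) = fromBlocks (Em K (Sum.map e e)) 0 0 1 := by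
  ext r c
  rcases r with r | r <;> rcases c with c | c
  · simp [Em_apply, eo]
  · simp [Em_apply, eo]
  · simp [Em_apply, eo]
  · simp [Em_apply, eo, Matrix.one_apply]

lemma Emt_eo : (Em K (eo e))ᵀ = fromBlocks (Em K (Sum.map e e))ᵀ 0 0 1 := by
  rw [Em_eo, fromBlocks_transpose]
  simp

lemma J1_tr : (J1 ι K)ᵀ = J1 ι K := by
  rw [J1, JE, fromBlocks_transpose, fromBlocks_transpose]
  simp

lemma JE_Em : JE ι K * Em K (Sum.map e e) = Em K (Sum.map e e) * JE κ K := by
  rw [Em_sum, JE, JE, fromBlocks_multiply, fromBlocks_multiply]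
  simp

lemma J1_Em : J1 ι K * Em K (eo e) = Em K (eo e) * J1 κ K := by
  rw [Em_eo, J1, J1, fromBlocks_multiply, fromBlocks_multiply, JE_Em]
  simp

lemma Pp_eo (he : Function.Injective e) : PpM K (eo e) = fromBlocks (PpM K (Sum.map e e)) 0 0 0 := by
  rw [Cfsg.Agent.Lib.Schur.SpStem.Pp, Emt_eo, Em_eo, fromBlocks_multiply, Cfsg.Agent.Lib.Schur.SpStem.Pp, ← fromBlocks_one, sub_eq_add_neg, fromBlocks_neg, fromBlocks_add]
  simp [sub_eq_add_neg]

lemma pad_ex (he : Function.Injective e) (X : Matrix (κ ⊕ κ) (κ ⊕ κ) K) :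
    pad K (eo e) (ex X) = ex (pad K (Sum.map e e) X) := by
  rw [pad, Pp_eo he, Emt_eo, Em_eo, ex, ex, fromBlocks_multiply, fromBlocks_multiply, pad, fromBlocks_add]
  simp

lemma Em_EE (i : κ) : Em K (eo e) * EE K i = EE K (e i) := by
  ext r c
  rw [Matrix.mul_apply, Finset.sum_eq_single (emb i c)]
  · simp only [Em_apply, EE, of_apply, if_true, mul_one, eo_emb]
  · intro d _ hd
    simp [EE, hd]
  · simp

lemma pad_MOm (he : Function.Injective e) (i : κ) (A : Matrix (Fin 3) (Fin 3) K) :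
    pad K (eo e) (MOm i A) = MOm (e i) A := by
  have h1 := pad_one (F := K) (eo_inj he)
  rw [pad, Matrix.mul_one] at h1
  rw [pad, MOm, MOm, Matrix.mul_add, Matrix.add_mul, Matrix.mul_one, add_right_comm, h1, ← Em_EE (e := e) i, transpose_mul]
  congr 1
  simp only [Matrix.mul_assoc]

/-- The block embedding preserves isometries. -/
lemma isU_pad (he : Function.Injective e) {M : Matrix (Io κ) (Io κ) K} (hM : IsU σ (J1 κ K) M) :
    IsU σ (J1 ι K) (pad K (eo e) M) := by
  unfold IsU at hM ⊢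
  have he2 := eo_inj he
  rw [pad_tr, pad_map]
  set E := Em K (eo e) with hE
  set J₁ := J1 ι K with hJ₁
  set J₀ := J1 κ K with hJ₀
  set X := Mᵀ with hX
  set Y := M.map σ with hY
  have F1 : J₁ * E = E * J₀ := J1_Em
  have F2 : Eᵀ * J₁ = J₀ * Eᵀ := by
    have h := congrArg Matrix.transpose F1
    rw [transpose_mul, transpose_mul, hJ₁, hJ₀, J1_tr, J1_tr] at h
    exact h
  have hEE : Eᵀ * E = 1 := Em_tr_Em he2
  have hPE : PpM K (eo e) * E = 0 := Pp_Em he2
  have hEP : Eᵀ * PpM K (eo e) = 0 := Em_Pp he2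
  have hPP := Pp_sq (F := K) he2
  have F3 : J₁ * PpM K (eo e) = PpM K (eo e) * J₁ := by
    rw [Cfsg.Agent.Lib.Schur.SpStem.Pp, Matrix.mul_sub, Matrix.sub_mul, Matrix.mul_one, Matrix.one_mul, ← hE, ← Matrix.mul_assoc, F1,
      Matrix.mul_assoc, Matrix.mul_assoc E, F2]
  simp only [pad]
  rw [← hE]
  set P := PpM K (eo e) with hP
  have h1 : E * X * Eᵀ * J₁ * (E * Y * Eᵀ) = E * J₀ * Eᵀ := by
    calc E * X * Eᵀ * J₁ * (E * Y * Eᵀ) = E * X * (Eᵀ * J₁) * E * Y * Eᵀ := by
          simp only [Matrix.mul_assoc]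
      _ = E * (X * J₀ * Y) * Eᵀ := by
          rw [F2]
          calc E * X * (J₀ * Eᵀ) * E * Y * Eᵀ = E * X * J₀ * (Eᵀ * E) * Y * Eᵀ := by
                simp only [Matrix.mul_assoc]
            _ = _ := by
                rw [hEE, Matrix.mul_one]
                simp only [Matrix.mul_assoc]
      _ = _ := by rw [hM]
  have h2 : E * X * Eᵀ * J₁ * P = 0 := by
    calc E * X * Eᵀ * J₁ * P = E * X * (Eᵀ * J₁) * P := by simp only [Matrix.mul_assoc]
      _ = E * X * J₀ * (Eᵀ * P) := by rw [F2]; simp only [Matrix.mul_assoc]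
      _ = 0 := by rw [hEP, Matrix.mul_zero]
  have h3 : P * J₁ * (E * Y * Eᵀ) = 0 := by
    calc P * J₁ * (E * Y * Eᵀ) = P * (J₁ * E) * Y * Eᵀ := by simp only [Matrix.mul_assoc]
      _ = (P * E) * J₀ * Y * Eᵀ := by rw [F1]; simp only [Matrix.mul_assoc]
      _ = 0 := by rw [hPE]; simp
  have h4 : P * J₁ * P = J₁ * P := by
    rw [← F3, Matrix.mul_assoc, hPP]
  have h5 : J₁ * P = J₁ - E * J₀ * Eᵀ := by
    rw [hP, Cfsg.Agent.Lib.Schur.SpStem.Pp, Matrix.mul_sub, Matrix.mul_one, ← hE, ← Matrix.mul_assoc, F1]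
  calc (E * X * Eᵀ + P) * J₁ * (E * Y * Eᵀ + P)
      = E * X * Eᵀ * J₁ * (E * Y * Eᵀ) + E * X * Eᵀ * J₁ * P + P * J₁ * (E * Y * Eᵀ) + P * J₁ * P := by
        simp only [add_mul, mul_add]
        abel
    _ = J₁ := by
        rw [h1, h2, h3, h4, h5]
        abel

instance ioNontrivial [Nonempty κ] : Nontrivial (Io κ) := by
  obtain ⟨i⟩ := ‹Nonempty κ›
  exact ⟨⟨Sum.inl (Sum.inl i), Sum.inr (), by simp⟩⟩

/-- The block embedding of the odd-dimensional unitary groups. -/
noncomputable def BkO [Nonempty κ] (he : Function.Injective e) : GO σ κ →* GO σ ι where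
  toFun x := ⟨⟨pad K (eo e) x.1.1, det_pad (eo_inj he) x.1⟩, isU_pad he x.2⟩
  map_one' := SUg_ext (pad_one (eo_inj he))
  map_mul' x y := SUg_ext (pad_mul (eo_inj he) _ _)

lemma coe_BkO [Nonempty κ] (he : Function.Injective e) (x : GO σ κ) : (BkO he x).1.1 = pad K (eo e) x.1.1 := rfl

lemma BkO_MS [Nonempty κ] (he : Function.Injective e) (i : κ) (g : GG σ) : BkO he (MS i g) = MS (e i) g :=
  SUg_ext (pad_MOm he i g.1.1)

lemma hh_pad {A B : Type*} [Fintype A] [DecidableEq A] [Fintype B] [DecidableEq B] (f : A → B) (M : Matrix A A K) :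
    hh σ (pad K f M) = pad K f (hh σ M) := by
  rw [hh, hh, pad_map, pad_tr]

lemma BkO_lvO [Nontrivial κ] (hσ : ∀ x, σ (σ x) = x) (he : Function.Injective e) (l : SpecialLinearGroup κ K) :
    BkO he (lvO hσ l) = lvO hσ (blkS he l) := by
  apply SUg_ext
  change pad K (eo e) (levO σ l) = levO σ (blkS he l)
  rw [levO, levO, pad_ex he, levM, levM, pad_blocks, ← map_inv, coe_blkS, coe_blkS, hh_pad]
  simp

end Bk

end Cfsg.Agent.Lib.SUStem
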