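import Mathlib

/-!
# Biadditive maps on a finite field, invariant under a scalar

If `φ (c x) (c y) = φ x y` for all `x, y`, and `c⁻¹` is not a Galois conjugate of `c`, then the
biadditive map `φ` is trivial.
-/

set_option autoImplicit false

namespace Cfsg.Agent.Lib.SUStem

open Polynomial

section

variable {K : Type*} [Field K] [Finite K] {p : ℕ} [Fact p.Prime] [CharP K p] {C : Type*} [CommGroup C]

/-- The conjugates. -/
theorem conj_of_root (c d : K) (h : letI := ZMod.algebra K p; aeval d (minpoly (ZMod p) c) = 0) :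
    ∃ i : ℕ, c ^ (p ^ i) = d := by
  classical
  letI := ZMod.algebra K p
  haveI : Fintype K := Fintype.ofFinite K
  have hint : IsIntegral (ZMod p) c := Algebra.IsIntegral.isIntegral c
  have h1 : IsConjRoot (ZMod p) c d := (isConjRoot_iff_aeval_eq_zero hint).2 h
  obtain ⟨τ, hτ⟩ := h1.symm.exists_algEquiv
  obtain ⟨n, hn⟩ := (FiniteField.bijective_frobeniusAlgEquivOfAlgebraic_pow (ZMod p) K).2 τ
  refine ⟨n.1, ?_⟩
  rw [← hτ, ← hn]
  simp only [AlgEquiv.coe_pow, FiniteField.coe_frobeniusAlgEquivOfAlgebraic_iterate, ZMod.card]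

/-- The main lemma. -/
theorem bilin_frob {φ : K → K → C}
    (h1 : ∀ x x' y, φ (x + x') y = φ x y * φ x' y) (h2 : ∀ x y y', φ x (y + y') = φ x y * φ x y')
    {c : Kˣ} (hc : ∀ x y, φ (c * x) (c * y) = φ x y)
    (hno : ∀ i : ℕ, (c : K) ^ (p ^ i) ≠ ((c⁻¹ : Kˣ) : K)) (x y : K) : φ x y = 1 := by
  classical
  letI := ZMod.algebra K p
  have h10 : ∀ y, φ 0 y = 1 := by
    intro y
    have := h1 0 0 y
    rw [add_zero] at this
    exact mul_eq_left.1 this.symm
  have h20 : ∀ x, φ x 0 = 1 := by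
    intro x
    have := h2 x 0 0
    rw [add_zero] at this
    exact mul_eq_left.1 this.symm
  have adj1 : ∀ x y, φ ((c : K) * x) y = φ x (((c⁻¹ : Kˣ) : K) * y) := by
    intro x y
    have := hc x (((c⁻¹ : Kˣ) : K) * y)
    rwa [← mul_assoc, Units.mul_inv, one_mul] at this
  have adjn : ∀ (n : ℕ) (x y : K), φ ((c : K) ^ n * x) y = φ x (((c⁻¹ : Kˣ) : K) ^ n * y) := by
    intro n
    induction n with
    | zero => intro x y; simp
    | succ n ih =>
      intro x y
      rw [pow_succ, mul_assoc, ih, adj1, pow_succ', mul_assoc]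
  have natl : ∀ (n : ℕ) (x y : K), φ ((n : K) * x) y = φ x y ^ n := by
    intro n
    induction n with
    | zero => intro x y; simp [h10]
    | succ n ih =>
      intro x y
      rw [Nat.cast_succ, add_mul, one_mul, h1, ih, pow_succ]
  have natr : ∀ (n : ℕ) (x y : K), φ x ((n : K) * y) = φ x y ^ n := by
    intro n
    induction n with
    | zero => intro x y; simp [h20]
    | succ n ih =>
      intro x y
      rw [Nat.cast_succ, add_mul, one_mul, h2, ih, pow_succ]
  have scal : ∀ (a : ZMod p) (x y : K), φ (algebraMap (ZMod p) K a * x) y = φ x (algebraMap (ZMod p) K a * y) := by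
    intro a x y
    have e : algebraMap (ZMod p) K a = ((ZMod.val a : ℕ) : K) := by
      conv_lhs => rw [← ZMod.natCast_zmod_val a]
      rw [map_natCast]
    rw [e, natl, natr]
  have hP : ∀ (f : (ZMod p)[X]) (x y : K), φ (aeval (c : K) f * x) y = φ x (aeval ((c⁻¹ : Kˣ) : K) f * y) := by
    intro f
    induction f using Polynomial.induction_on' with
    | add f g hf hg =>
      intro x y
      simp only [map_add, add_mul, h1, h2, hf, hg]
    | monomial n a =>
      intro x y
      simp only [aeval_monomial]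
      rw [mul_assoc, scal, adjn]
      congr 1
      ring
  set P := minpoly (ZMod p) (c : K) with hPdef
  have hne : aeval ((c⁻¹ : Kˣ) : K) P ≠ 0 := by
    intro h0
    obtain ⟨i, hi⟩ := conj_of_root (p := p) (c : K) _ h0
    exact hno i hi
  have h3 := hP P x ((aeval ((c⁻¹ : Kˣ) : K) P)⁻¹ * y)
  rw [minpoly.aeval, zero_mul, h10, ← mul_assoc, mul_inv_cancel₀ hne, one_mul] at h3
  exact h3.symm

end

/-- The number theory behind the application. -/
theorem no_conj_aux {p f q i : ℕ} (hp : p.Prime) (hq : q = p ^ f) (h3 : 3 ≤ q) (hi : i ≤ f)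
    (hd : q ^ 2 - 1 ∣ (q - 2) * (p ^ i + 1)) : False := by
  have hq1 : 1 ≤ q ^ 2 := Nat.one_le_pow _ _ (by omega)
  have hg : Nat.gcd (q ^ 2 - 1) (q - 2) ∣ 3 := by
    obtain ⟨r, rfl⟩ : ∃ r, q = r + 3 := ⟨q - 3, by omega⟩
    have e : (r + 3) ^ 2 - 1 = (r + 3 - 2) * (r + 5) + 3 := by
      have : (r + 3) ^ 2 = (r + 1) * (r + 5) + 4 := by ring
      simp only [show r + 3 - 2 = r + 1 by omega]
      omega
    have e2 : r + 3 - 2 = r + 1 := by omega
    rw [e, e2]
    have h1 : Nat.gcd ((r + 1) * (r + 5) + 3) (r + 1) ∣ (r + 1) * (r + 5) + 3 := Nat.gcd_dvd_left _ _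
    have h2 : Nat.gcd ((r + 1) * (r + 5) + 3) (r + 1) ∣ (r + 1) * (r + 5) :=
      (Nat.gcd_dvd_right _ _).mul_right _
    exact (Nat.dvd_add_right h2).1 h1
  have hpos : 0 < q ^ 2 - 1 := by
    have : 9 ≤ q ^ 2 := by nlinarith
    omega
  have hle1 : p ^ i ≤ q := by
    rw [hq]
    exact Nat.pow_le_pow_right hp.pos hi
  have hdg : (q ^ 2 - 1) / Nat.gcd (q ^ 2 - 1) (q - 2) ∣ p ^ i + 1 := by
    have hgpos : 0 < Nat.gcd (q ^ 2 - 1) (q - 2) := Nat.gcd_pos_of_pos_left _ hpos
    have hc := Nat.coprime_div_gcd_div_gcd (m := q ^ 2 - 1) (n := q - 2) hgpos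
    have h5 : (q ^ 2 - 1) / Nat.gcd (q ^ 2 - 1) (q - 2) ∣ (q - 2) / Nat.gcd (q ^ 2 - 1) (q - 2) * (p ^ i + 1) := by
      refine Nat.dvd_of_mul_dvd_mul_left hgpos ?_
      rw [Nat.mul_div_cancel' (Nat.gcd_dvd_left _ _), ← mul_assoc, Nat.mul_div_cancel' (Nat.gcd_dvd_right _ _)]
      exact hd
    exact hc.dvd_of_dvd_mul_left h5
  have hg3 : Nat.gcd (q ^ 2 - 1) (q - 2) ≤ 3 := Nat.le_of_dvd (by norm_num) hg
  have hle := Nat.le_of_dvd (by positivity) hdg
  have h9 : (q ^ 2 - 1) / 3 ≤ (q ^ 2 - 1) / Nat.gcd (q ^ 2 - 1) (q - 2) :=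
    Nat.div_le_div_left hg3 (Nat.gcd_pos_of_pos_left _ hpos)
  have h10 : (q ^ 2 - 1) / 3 ≤ q + 1 := by omega
  have hq4 : q ≤ 4 := by
    by_contra hcon
    have h5 : 5 ≤ q := by omega
    have : q ^ 2 - 1 < 3 * (q + 1) + 3 := by
      have := Nat.div_add_mod (q ^ 2 - 1) 3
      have h6 := Nat.mod_lt (q ^ 2 - 1) (show 3 > 0 by norm_num)
      omega
    have h7 : q ^ 2 ≥ 5 * q := by nlinarith
    omega
  have hcases : q = 3 ∨ q = 4 := by omega
  rcases hcases with rfl | rfl
  · -- `q = 3`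
    have hp3 : p = 3 := by
      have : p ∣ 3 := by
        rw [hq]
        have hf : f ≠ 0 := by
          rintro rfl
          simp at hq
        exact dvd_pow_self p hf
      exact (Nat.prime_dvd_prime_iff_eq hp Nat.prime_three).1 this
    subst hp3
    have hi2 : 3 ^ i ≤ 3 := hle1
    have hi1 : i ≤ 1 := by
      by_contra hc
      have : 3 ^ 2 ≤ 3 ^ i := Nat.pow_le_pow_right (by norm_num) (by omega)
      omega
    interval_cases i <;> norm_num at hd
  · -- `q = 4`
    have hp2 : p = 2 := by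
      have h2 : p ∣ 4 := by
        rw [hq]
        have hf : f ≠ 0 := by
          rintro rfl
          simp at hq
        exact dvd_pow_self p hf
      have : p ∣ 2 ^ 2 := by simpa using h2
      exact (Nat.prime_dvd_prime_iff_eq hp Nat.prime_two).1 (hp.dvd_of_dvd_pow this)
    subst hp2
    have hi2 : 2 ^ i ≤ 4 := hle1
    have hi1 : i ≤ 2 := by
      by_contra hc
      have : 2 ^ 3 ≤ 2 ^ i := Nat.pow_le_pow_right (by norm_num) (by omega)
      omega
    interval_cases i <;> norm_num at hd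

end Cfsg.Agent.Lib.SUStem
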