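import Cfsg.Agent.Lib.Schur.SpStem.Levi

/-!
# The section of a central extension over a subgroup `SL_n(F)`, `n ≥ 3`, normalised by a torus

A port of `Schur/SpStem/Levi` to an abstract target group `G`, with a homomorphism `lev : SL_ι(F) →* G` and a
family of elements `tor v` of `G` inducing the diagonal automorphisms.
-/

set_option autoImplicit false
set_option linter.unusedSectionVars false
set_option linter.unusedVariables false
set_option linter.unusedSimpArgs false

namespace Cfsg.Agent.Lib.SUStem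

open Cfsg Subgroup Matrix
open scoped commutatorElement MatrixGroups
open Cfsg.Agent.Lib.PresSp.M2 Cfsg.Agent.Lib.PresSp.Mono Cfsg.Agent.Lib.PresSLn.TwoGen
  Cfsg.Agent.Lib.PresSp.Abs Cfsg.Agent.Lib.PresSp.Tgt Cfsg.Agent.Lib.Schur
  Cfsg.Agent.Lib.Schur.SpStem
open Cfsg.Agent.Lib.Classical.StSLn (Rel Xc pG x_mem Xc_le inj_all)

section Levi

variable {ι : Type*} [Fintype ι] [DecidableEq ι] {F : Type*} [Field F] {G Γ : Type*} [Group G] [Group Γ]
  {σ : Γ →* G} (lev : SpecialLinearGroup ι F →* G)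

/-- The root elements of the Levi subgroup. -/
noncomputable def tg (i j : ι) (a : F) : G := lev (SLnStem.tt i j a)

lemma tg_rel : Rel (tg lev : ι → ι → F → G) where
  add := fun i j h a b => by
    simp only [tg]
    rw [SLnStem.tt_add h, map_mul]
  comm := fun i j k l hij hkl hjk hil a b => by
    simp only [tg]
    rw [← map_mul, ← map_mul, SLnStem.tt_comm hij hkl hjk hil]
  comm2 := fun i j l hij hjl hil a b => by
    have := SLnStem.tt_rel.comm2 i j l hij hjl hil a b
    simp only [tg]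
    rw [← this]
    simp only [map_mul, map_inv]

variable {lev} {tor : (ι → Fˣ) → G}
  (htor : ∀ (v : ι → Fˣ) {i j : ι} (h : i ≠ j) (c : F),
    tor v * lev (TT h c) * (tor v)⁻¹ = lev (TT h ((v i : F) * c * ((v j)⁻¹ : Fˣ))))
  (htc : ∀ v v', tor v * tor v' = tor v' * tor v)
include htor

lemma tor_tg (v : ι → Fˣ) {i j : ι} (h : i ≠ j) (c : F) :
    tor v * tg lev i j c * (tor v)⁻¹ = tg lev i j ((v i : F) * c * ((v j)⁻¹ : Fˣ)) := by
  simp only [tg]
  rw [SLnStem.tt_of_ne h, htor, SLnStem.tt_of_ne h]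

variable (hcen : σ.ker ≤ center Γ) (hs : Function.Surjective σ)
include hcen hs

/-- Lifts of commuting root elements of the Levi subgroup commute. -/
theorem lc_tg {w : Fˣ} (hw : (w : F) ≠ 1) (h3 : ∀ i j : ι, ∃ k, k ≠ i ∧ k ≠ j) :
    SLnStem.LC σ (tg lev : ι → ι → F → G) := by
  intro i j k l hij hkl hjk hil a b A B hA hB
  by_cases same : i = k ∧ j = l
  · obtain ⟨rfl, rfl⟩ := same
    obtain ⟨m, h1, h2⟩ := h3 i j
    exact SLnStem.comm_of_free hcen hs (tg_rel lev) hij hij hjk hil h1 h2 h1 h2 hA hB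
  have hadd : ∀ s t : F, tg lev k l (s + t) = tg lev k l s * tg lev k l t := fun s t => (tg_rel lev).add k l hkl s t
  have hcm : ∀ t, σ A * tg lev k l t = tg lev k l t * σ A := by
    intro t
    rw [hA]
    exact (tg_rel lev).comm i j k l hij hkl hjk hil a t
  by_cases hik : i = k
  · subst hik
    have hjl : j ≠ l := fun h => same ⟨rfl, h⟩
    refine SpStem.comm_of_scale hcen hs hadd hcm hw (fun t => ?_) hB
    refine ⟨tor (ev1 l w⁻¹), ?_, ?_⟩
    · rw [hA, tor_tg htor _ hij, ev1_ne hil, ev1_ne hjl]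
      congr 1
      simp
    · rw [tor_tg htor _ hkl, ev1_ne hil, ev1_self]
      congr 1
      simp [mul_comm]
  · refine SpStem.comm_of_scale hcen hs hadd hcm hw (fun t => ?_) hB
    refine ⟨tor (ev1 k w), ?_, ?_⟩
    · rw [hA, tor_tg htor _ hij, ev1_ne hik, ev1_ne hjk]
      congr 1
      simp
    · rw [tor_tg htor _ hkl, ev1_self, ev1_ne hkl.symm]
      congr 1
      simp [mul_comm]

include htc in
/-- Lifts of `ε_i - ε_j` commute with lifts of torus elements whose value at `i` and `j` is `1`. -/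
theorem comm_tor_tg {w : Fˣ} (hw : (w : F) ≠ 1) {i j : ι} (hij : i ≠ j) {v : ι → Fˣ} (hvi : v i = 1) (hvj : v j = 1)
    {E B : Γ} {c : F} (hE : σ E = tor v) (hB : σ B = tg lev i j c) : E * B = B * E := by
  have hadd : ∀ s t : F, tg lev i j (s + t) = tg lev i j s * tg lev i j t := fun s t => (tg_rel lev).add i j hij s t
  refine SpStem.comm_of_scale hcen hs hadd ?_ hw (fun t => ?_) hB
  · intro t
    rw [hE]
    have h := tor_tg htor v hij t
    rw [hvi, hvj] at h
    simp only [Units.val_one, inv_one, one_mul, mul_one] at h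
    exact mul_inv_eq_iff_eq_mul.1 h
  · refine ⟨tor (ev1 i w), ?_, ?_⟩
    · rw [hE, mul_inv_eq_iff_eq_mul]
      exact htc _ _
    · rw [tor_tg htor _ hij, ev1_self, ev1_ne hij.symm]
      congr 1
      simp

include htc in
/-- The exchange in the middle: the commutator of lifts only depends on the product. -/
theorem mid_tg {w : Fˣ} (hw : (w : F) ≠ 1) (hC : SLnStem.LC σ (tg lev : ι → ι → F → G))
    (L : G → Γ) (hL : ∀ g, σ (L g) = g) {i k j : ι} (hik : i ≠ k) (hkj : k ≠ j) (hij : i ≠ j)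
    (a b : F) : ⁅L (tg lev i k a), L (tg lev k j b)⁆ = ⁅L (tg lev i k (a * b)), L (tg lev k j 1)⁆ := by
  by_cases hb : b = 0
  · subst hb
    rw [mul_zero]
    have h0 : ∀ (i j : ι), i ≠ j → tg lev i j (0 : F) = 1 := fun i j h => (tg_rel lev).zero h
    have e1 : ⁅L (tg lev i k a), L (tg lev k j 0)⁆ = ⁅L (tg lev i k a), (1 : Γ)⁆ :=
      SLnStem.comm_eq hcen rfl (by rw [hL, map_one, h0 k j hkj])
    have e2 : ⁅L (tg lev i k (0 : F)), L (tg lev k j 1)⁆ = ⁅(1 : Γ), L (tg lev k j 1)⁆ :=
      SLnStem.comm_eq hcen (by rw [hL, map_one, h0 i k hik]) rfl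
    rw [e1, e2]
    simp [commutatorElement_def]
  · let U : Fˣ := Units.mk0 b hb
    obtain ⟨E, hE⟩ := hs (tor (ev1 k U⁻¹))
    have e1 : σ (E * L (tg lev i k a) * E⁻¹) = tg lev i k (a * b) := by
      rw [map_mul, map_mul, map_inv, hE, hL, tor_tg htor _ hik, ev1_ne hik, ev1_self]
      congr 1
      simp [U]
    have e2 : σ (E * L (tg lev k j b) * E⁻¹) = tg lev k j 1 := by
      rw [map_mul, map_mul, map_inv, hE, hL, tor_tg htor _ hkj, ev1_self, ev1_ne hkj.symm]
      congr 1
      simp [U, hb]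
    have hD : σ ⁅L (tg lev i k a), L (tg lev k j b)⁆ = tg lev i j (a * b) :=
      SLnStem.map_comm_t (tg_rel lev) hik hkj hij (hL _) (hL _)
    have hcm := comm_tor_tg htor htc hcen hs hw hij (ev1_ne hik U⁻¹) (ev1_ne hkj.symm U⁻¹) hE hD
    have h5 : ⁅E * L (tg lev i k a) * E⁻¹, E * L (tg lev k j b) * E⁻¹⁆ = E * ⁅L (tg lev i k a), L (tg lev k j b)⁆ * E⁻¹ := by
      simp only [commutatorElement_def]
      group
    have h6 := SLnStem.comm_eq hcen (a := E * L (tg lev i k a) * E⁻¹) (a' := L (tg lev i k (a * b)))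
      (b := E * L (tg lev k j b) * E⁻¹) (b' := L (tg lev k j 1)) (by rw [e1, hL]) (by rw [e2, hL])
    rw [h5, hcm, mul_inv_cancel_right] at h6
    exact h6

include htc in
/-- The exchange of the middle index. -/
theorem pq_tg {w : Fˣ} (hw : (w : F) ≠ 1) (hC : SLnStem.LC σ (tg lev : ι → ι → F → G))
    (L : G → Γ) (hL : ∀ g, σ (L g) = g) :
    ∀ i k j m, i ≠ k → k ≠ j → i ≠ j → i ≠ m → m ≠ j → ∀ a b : F,
      ⁅L (tg lev i k a), L (tg lev k j b)⁆ = ⁅L (tg lev i m (a * b)), L (tg lev m j 1)⁆ := by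
  intro i k j m hik hkj hij him hmj a b
  by_cases hkm : k = m
  · subst hkm
    exact mid_tg htor htc hcen hs hw hC L hL hik hkj hij a b
  · exact SLnStem.hPQ_of_ne hcen (tg_rel lev) hC L hL hik hkj hij him hmj hkm a b

include htc in
/-- The section of a central extension over the Levi subgroup. -/
theorem levi_sectionG [Finite F] (hinj : Function.Injective lev) {w : Fˣ} (hw : (w : F) ≠ 1)
    (hn : 3 ≤ Fintype.card ι) : ∃ lam : SpecialLinearGroup ι F →* Γ, ∀ l, σ (lam l) = lev l := by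
  classical
  let L : G → Γ := Function.surjInv hs
  have hL : ∀ g, σ (L g) = g := Function.surjInv_eq hs
  have h3 : ∀ i j : ι, ∃ k, k ≠ i ∧ k ≠ j := by
    intro i j
    obtain ⟨k, h1, h2⟩ := Cfsg.Agent.Lib.Classical.Transvections.exists_third_index hn i j
    exact ⟨k, h1.symm, h2⟩
  have hC := lc_tg htor hcen hs hw h3
  obtain ⟨x, hR, hx⟩ := SLnStem.exists_rel hcen hs (tg_rel lev) h3 hC L hL (pq_tg htor htc hcen hs hw hC L hL)
  let H : Subgroup Γ := (lev.range).comap σ
  let e := MonoidHom.ofInjective hinj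
  let φ : H →* SpecialLinearGroup ι F := e.symm.toMonoidHom.comp (σ.subgroupComap _)
  have hφ : ∀ y : H, lev (φ y) = σ y := by
    intro y
    have h1 := e.apply_symm_apply (σ.subgroupComap _ y)
    exact congrArg Subtype.val h1
  have hxH : ∀ i j a, i ≠ j → x i j a ∈ H := by
    intro i j a hij
    rw [Subgroup.mem_comap, hx i j a hij]
    exact ⟨_, rfl⟩
  let x' : ι → ι → F → H := fun i j a => if h : i ≠ j then ⟨x i j a, hxH i j a h⟩ else 1
  have hx' : ∀ i j a (h : i ≠ j), ((x' i j a : H) : Γ) = x i j a := by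
    intro i j a h
    simp only [x', dif_pos h]
  have hR' : Rel x' := by
    refine ⟨?_, ?_, ?_⟩
    · intro i j h t u
      apply Subtype.ext
      rw [Subgroup.coe_mul, hx' _ _ _ h, hx' _ _ _ h, hx' _ _ _ h]
      exact hR.add i j h t u
    · intro i j k l hij hkl hjk hil t u
      apply Subtype.ext
      rw [Subgroup.coe_mul, Subgroup.coe_mul, hx' _ _ _ hij, hx' _ _ _ hkl]
      exact hR.comm i j k l hij hkl hjk hil t u
    · intro i j l hij hjl hil t u
      apply Subtype.ext
      rw [Subgroup.coe_mul, Subgroup.coe_mul, Subgroup.coe_mul, Subgroup.coe_inv, Subgroup.coe_inv,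
        hx' _ _ _ hij, hx' _ _ _ hjl, hx' _ _ _ hil]
      exact hR.comm2 i j l hij hjl hil t u
  have hφx : ∀ i j (h : i ≠ j) t, φ (x' i j t) = SLnStem.tt i j t := by
    intro i j h t
    apply hinj
    rw [hφ, hx' _ _ _ h, hx i j t h]
    rfl
  have hinj' := inj_all φ hR' (fun i j hij t => by rw [hφx i j hij t, SLnStem.tt_coe hij]) h3 Finset.univ
  let φ' : Xc x' (pG Finset.univ) →* SpecialLinearGroup ι F := φ.comp (Xc x' (pG Finset.univ)).subtype
  have hbij : Function.Bijective φ' := by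
    constructor
    · rw [injective_iff_map_eq_one]
      rintro ⟨y, hy⟩ hy1
      exact Subtype.ext (hinj' y hy hy1)
    · have hNon : Nontrivial ι := Fintype.one_lt_card_iff_nontrivial.1 (by omega)
      rw [← MonoidHom.range_eq_top, eq_top_iff,
        ← Cfsg.Agent.Lib.Classical.Transvections.closure_transvections_eq_top (F := F), Subgroup.closure_le]
      rintro _ ⟨i, j, hij, a, rfl⟩
      refine ⟨⟨x' i j a, x_mem hij ⟨Finset.mem_univ _, Finset.mem_univ _⟩ a⟩, ?_⟩
      change φ (x' i j a) = _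
      rw [hφx i j hij a, SLnStem.tt_of_ne hij]
  let E := MulEquiv.ofBijective φ' hbij
  refine ⟨H.subtype.comp ((Xc x' (pG Finset.univ)).subtype.comp E.symm.toMonoidHom), fun l => ?_⟩
  have h1 : φ' (E.symm l) = l := E.apply_symm_apply l
  calc σ ((H.subtype.comp ((Xc x' (pG Finset.univ)).subtype.comp E.symm.toMonoidHom)) l)
      = σ (((E.symm l : Xc x' (pG Finset.univ)) : H) : Γ) := rfl
    _ = lev (φ ((E.symm l : Xc x' (pG Finset.univ)) : H)) := (hφ _).symm
    _ = lev l := by
      have h2 : φ ((E.symm l : Xc x' (pG Finset.univ)) : H) = l := h1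
      rw [h2]

end Levi

end Cfsg.Agent.Lib.SUStem
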