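import Cfsg.Agent.Lib.SUStem.Defs
import Cfsg.Agent.Lib.SUStem.Frob
import Cfsg.Agent.Lib.PresSU3.Iso

/-!
# The unipotent subgroup of `SU₃`: a central extension has no commutators in the kernel

Let `π : Γ → GG σ` be a central extension and `Û` the preimage of the unipotent subgroup `U`.  Then
`Û' ∩ ker π = 1`; so `z ^ [G : U] = 1` for `z ∈ ker π ∩ Γ'`.
-/

set_option autoImplicit false
set_option linter.unusedSectionVars false
set_option linter.unusedVariables false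
set_option linter.unusedSimpArgs false

namespace Cfsg.Agent.Lib.SUStem

open Cfsg Subgroup Matrix
open scoped commutatorElement
open Cfsg.Agent.Lib.PresSU3 (GG qq tt ac nrm cstr_mul cstr_inv cstr_zero qq_mul qq_zero qq_inv qq_congr tt_qq cstr_tt
  tt_mul tt_inv)
open Cfsg.Agent.Lib.Schur.SLnStem (comm_eq central_ker comm_ker)
open Cfsg.Agent.Lib.Schur.SpStem (comm_mul_right)

section group

variable {G : Type*} [Group G]

lemma comm_right_mul_of {a b w : G} (h : Commute w a) : ⁅a, b * w⁆ = ⁅a, b⁆ := by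
  have e : w * a⁻¹ = a⁻¹ * w := (h.inv_right).eq
  simp only [commutatorElement_def, _root_.mul_inv_rev]
  calc a * (b * w) * a⁻¹ * (w⁻¹ * b⁻¹) = a * b * (w * a⁻¹) * (w⁻¹ * b⁻¹) := by group
    _ = a * b * a⁻¹ * b⁻¹ := by rw [e]; group

lemma comm_left_mul_of {a b z : G} (h : Commute z b) : ⁅a * z, b⁆ = ⁅a, b⁆ := by
  have e : z * b = b * z := h.eq
  simp only [commutatorElement_def, _root_.mul_inv_rev]
  calc a * z * b * (z⁻¹ * a⁻¹) * b⁻¹ = a * (z * b) * (z⁻¹ * a⁻¹) * b⁻¹ := by group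
    _ = a * b * a⁻¹ * b⁻¹ := by rw [e]; group

end group

variable {F : Type*} [Field F] {σ : F →+* F} (hσ : ∀ x, σ (σ x) = x)

/-- The unipotent subgroup. -/
def UU : Subgroup (GG σ) where
  carrier := {g | ∃ a b, ∃ h : b + σ b + a * σ a = 0, g = qq hσ a b h}
  mul_mem' := by
    rintro _ _ ⟨a, b, h, rfl⟩ ⟨c, d, h', rfl⟩
    exact ⟨_, _, _, qq_mul hσ h h'⟩
  one_mem' := ⟨0, 0, cstr_zero, (qq_zero hσ).symm⟩
  inv_mem' := by
    rintro _ ⟨a, b, h, rfl⟩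
    exact ⟨_, _, _, qq_inv hσ h⟩

/-- The centre of the unipotent subgroup. -/
def ZZ : Subgroup (GG σ) where
  carrier := {g | ∃ b, ∃ h : b + σ b + 0 * σ 0 = 0, g = qq hσ 0 b h}
  mul_mem' := by
    rintro _ _ ⟨b, h, rfl⟩ ⟨d, h', rfl⟩
    refine ⟨b + d - 0 * σ 0, ?_, ?_⟩
    · have := cstr_mul hσ h h'
      rwa [add_zero] at this
    · rw [qq_mul hσ h h']
      exact qq_congr hσ _ (by ring) rfl
  one_mem' := ⟨0, cstr_zero, (qq_zero hσ).symm⟩
  inv_mem' := by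
    rintro _ ⟨b, h, rfl⟩
    refine ⟨σ b, ?_, ?_⟩
    · have := cstr_inv hσ h
      simpa using this
    · rw [qq_inv hσ h]
      exact qq_congr hσ _ (by ring) rfl

lemma ZZ_le : ZZ hσ ≤ UU hσ := by
  rintro _ ⟨b, h, rfl⟩
  exact ⟨0, b, h, rfl⟩

/-- The commutator formula in the unipotent subgroup. -/
lemma qq_comm {a b c d : F} (h : b + σ b + a * σ a = 0) (h' : d + σ d + c * σ c = 0) :
    ∃ he : (c * σ a - a * σ c) + σ (c * σ a - a * σ c) + 0 * σ 0 = 0,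
      ⁅qq hσ a b h, qq hσ c d h'⁆ = qq hσ 0 (c * σ a - a * σ c) he := by
  have he : (c * σ a - a * σ c) + σ (c * σ a - a * σ c) + 0 * σ 0 = 0 := by
    simp only [map_sub, map_mul, hσ, map_zero]
    ring
  refine ⟨he, ?_⟩
  rw [commutatorElement_def, qq_inv, qq_inv, qq_mul, qq_mul, qq_mul]
  refine qq_congr hσ _ (by ring) ?_
  simp only [map_neg, map_add, map_sub, map_mul, hσ]
  linear_combination h + h'

/-- Elements of the centre commute with the unipotent group. -/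
lemma qq_Z_comm {a b d : F} (hd : d + σ d + 0 * σ 0 = 0) (h : b + σ b + a * σ a = 0) :
    qq hσ 0 d hd * qq hσ a b h = qq hσ a b h * qq hσ 0 d hd := by
  rw [qq_mul, qq_mul]
  refine qq_congr hσ _ (by ring) ?_
  simp only [map_zero]
  ring

variable {Γ : Type*} [Group Γ] {π : Γ →* GG σ}

section step1

variable (hcen : π.ker ≤ center Γ) (hs : Function.Surjective π)
include hcen hs

/-- Lifts of the centre of `U` commute with lifts of `U`. -/
theorem comm_Z_U (htr : ∀ a : F, ∃ b, b + σ b + a * σ a = 0)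
    (hdiff : ∀ e : F, e + σ e = 0 → ∃ v, e = v - σ v) {t : Fˣ} (ht : (t : F) * σ t = 1) (hw : (t : F) ^ 3 ≠ 1)
    {A B : Γ} {d a b : F} {hd : d + σ d + 0 * σ 0 = 0} {h : b + σ b + a * σ a = 0}
    (hA : π A = qq hσ 0 d hd) (hB : π B = qq hσ a b h) : A * B = B * A := by
  classical
  let L : GG σ → Γ := Function.surjInv hs
  have hL : ∀ x, π (L x) = x := Function.surjInv_eq hs
  have hcA : ∀ u ∈ UU hσ, π A * u = u * π A := by
    rintro _ ⟨x, y, hxy, rfl⟩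
    rw [hA]
    exact qq_Z_comm hσ hd hxy
  have hk : ∀ u ∈ UU hσ, π ⁅A, L u⁆ = 1 := fun u hu => comm_ker (by rw [hL]; exact hcA u hu)
  have hz : ∀ u ∈ UU hσ, ⁅A, L u⁆ ∈ center Γ := fun u hu => hcen (hk u hu)
  -- the homomorphism
  let χ : UU hσ →* center Γ := MonoidHom.mk' (fun u => ⟨⁅A, L u⁆, hz u u.2⟩) (by
    intro u v
    apply Subtype.ext
    change ⁅A, L ((u : GG σ) * v)⁆ = ⁅A, L u⁆ * ⁅A, L v⁆
    have e : ⁅A, L ((u : GG σ) * v)⁆ = ⁅A, L u * L v⁆ := comm_eq hcen rfl (by rw [hL, map_mul, hL, hL])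
    rw [e]
    exact comm_mul_right hcen (by rw [hL]; exact hcA v v.2))
  have hχ : ∀ u : UU hσ, (χ u : Γ) = ⁅A, L u⁆ := fun u => rfl
  have hχc : ∀ x y : UU hσ, χ ⁅x, y⁆ = 1 := by
    intro x y
    rw [map_commutatorElement, commutatorElement_eq_one_iff_mul_comm]
    exact Subtype.ext (mem_center_iff.1 (χ y).2 _)
  -- invariance
  have hN : nrm σ (t : F) = 1 := ht
  have hac : ac σ (t : F) = (t : F) ^ 3 := by
    have h0 := t.ne_zero
    have h1 : σ (t : F) ≠ 0 := (map_ne_zero σ).2 h0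
    have h2 : σ (t : F) = (t : F)⁻¹ := eq_inv_of_mul_eq_one_right ht
    rw [ac, h2]
    field_simp
  obtain ⟨H, hH⟩ := hs (tt hσ t)
  have hinv : ∀ (x y : F) (hxy : y + σ y + x * σ x = 0),
      χ ⟨qq hσ ((t : F) ^ 3 * x) y (by
        have := cstr_tt hσ t.ne_zero hxy
        rw [hN, hac, one_mul] at this
        exact this), ⟨_, _, _, rfl⟩⟩ = χ ⟨qq hσ x y hxy, ⟨_, _, _, rfl⟩⟩ := by
    intro x y hxy
    apply Subtype.ext
    rw [hχ, hχ]
    have e1 : π (H * A * H⁻¹) = π A := by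
      rw [map_mul, map_mul, map_inv, hH, hA, tt_qq]
      refine qq_congr hσ _ (by ring) ?_
      rw [hN, one_mul]
    have e2 : π (H * L (qq hσ x y hxy) * H⁻¹) =
        π (L (qq hσ ((t : F) ^ 3 * x) y (by
        have := cstr_tt hσ t.ne_zero hxy
        rw [hN, hac, one_mul] at this
        exact this))) := by
      rw [hL, map_mul, map_mul, map_inv, hH, hL, tt_qq]
      refine qq_congr hσ _ (by rw [hac]) ?_
      rw [hN, one_mul]
    have e3 := comm_eq hcen e1 e2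
    have e4 : ⁅H * A * H⁻¹, H * L (qq hσ x y hxy) * H⁻¹⁆ = H * ⁅A, L (qq hσ x y hxy)⁆ * H⁻¹ := by
      simp only [commutatorElement_def]
      group
    rw [← e3, e4, mem_center_iff.1 (hz _ ⟨_, _, _, rfl⟩) H, mul_inv_cancel_right]
  -- the centre
  have hZ0 : ∀ (e : F) (he : e + σ e + 0 * σ 0 = 0), χ ⟨qq hσ 0 e he, ⟨_, _, _, rfl⟩⟩ = 1 := by
    intro e he
    obtain ⟨v, rfl⟩ := hdiff e (by simpa using he)
    obtain ⟨b₁, h₁⟩ := htr v
    obtain ⟨b₂, h₂⟩ := htr 1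
    obtain ⟨he', e'⟩ := qq_comm hσ h₂ h₁
    have e2 : (⟨qq hσ 0 (v - σ v) he, ⟨_, _, _, rfl⟩⟩ : UU hσ) =
        ⁅(⟨qq hσ 1 b₂ h₂, ⟨_, _, _, rfl⟩⟩ : UU hσ), (⟨qq hσ v b₁ h₁, ⟨_, _, _, rfl⟩⟩ : UU hσ)⁆ := by
      apply Subtype.ext
      change qq hσ 0 (v - σ v) he = ⁅qq hσ 1 b₂ h₂, qq hσ v b₁ h₁⁆
      rw [e']
      refine qq_congr hσ _ rfl ?_
      simp only [map_one]
      ring
    rw [e2, hχc]
  -- the general element
  have hne : (t : F) ^ 3 - 1 ≠ 0 := sub_ne_zero.2 hw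
  have hall : χ ⟨qq hσ a b h, ⟨_, _, _, rfl⟩⟩ = 1 := by
    set a' : F := a / ((t : F) ^ 3 - 1) with ha'
    obtain ⟨b', hb'⟩ := htr a'
    have h3 : b' + σ b' + ((t : F) ^ 3 * a') * σ ((t : F) ^ 3 * a') = 0 := by
      have := cstr_tt hσ t.ne_zero hb'
      rw [hN, hac, one_mul] at this
      exact this
    have h4 : χ (⟨qq hσ ((t : F) ^ 3 * a') b' h3, ⟨_, _, _, rfl⟩⟩ * (⟨qq hσ a' b' hb', ⟨_, _, _, rfl⟩⟩ : UU hσ)⁻¹) = 1 := by
      rw [map_mul, map_inv, hinv a' b' hb', mul_inv_cancel]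
    set w₁ : UU hσ := ⟨qq hσ ((t : F) ^ 3 * a') b' h3, ⟨_, _, _, rfl⟩⟩ * (⟨qq hσ a' b' hb', ⟨_, _, _, rfl⟩⟩ : UU hσ)⁻¹ with hw₁
    have hw₁v : ((w₁ : UU hσ) : GG σ) = qq hσ ((t : F) ^ 3 * a') b' h3 * (qq hσ a' b' hb')⁻¹ := rfl
    rw [qq_inv, qq_mul] at hw₁v
    have haa : (t : F) ^ 3 * a' + -a' = a := by
      rw [ha']
      field_simp
      ring
    -- compare with the element
    set c₁ := b' + σ b' - (t : F) ^ 3 * a' * σ (-a') with hc₁
    have hc1 : c₁ + σ c₁ + a * σ a = 0 := by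
      have := cstr_mul hσ h3 (cstr_inv hσ hb')
      rwa [haa] at this
    have e5 : ((w₁ : UU hσ) : GG σ) = qq hσ a c₁ hc1 := by
      rw [hw₁v]
      exact qq_congr hσ _ haa rfl
    have hdz : (b - c₁) + σ (b - c₁) + 0 * σ 0 = 0 := by
      rw [map_sub]
      linear_combination h - hc1
    have e6 : (⟨qq hσ a b h, ⟨_, _, _, rfl⟩⟩ : UU hσ) = w₁ * ⟨qq hσ 0 (b - c₁) hdz, ⟨_, _, _, rfl⟩⟩ := by
      apply Subtype.ext
      change qq hσ a b h = (w₁ : GG σ) * qq hσ 0 (b - c₁) hdz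
      rw [e5, qq_mul]
      refine qq_congr hσ _ (by ring) ?_
      rw [map_zero]
      ring
    rw [e6, map_mul, h4, hZ0, mul_one]
  have h6 : ⁅A, B⁆ = 1 := by
    rw [comm_eq hcen (a' := A) (b' := L (qq hσ a b h)) rfl (by rw [hB, hL])]
    exact congrArg Subtype.val hall
  exact commutatorElement_eq_one_iff_mul_comm.1 h6

end step1

section step2

variable (hcen : π.ker ≤ center Γ) (hs : Function.Surjective π)
variable (hZ : ∀ {A B : Γ} {d a b : F} {hd : d + σ d + 0 * σ 0 = 0} {h : b + σ b + a * σ a = 0},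
      π A = qq hσ 0 d hd → π B = qq hσ a b h → A * B = B * A)

include hZ in
/-- Lifts of `Z` commute. -/
lemma Zh_comm {x y : Γ} (hx : x ∈ (ZZ hσ).comap π) (hy : y ∈ (ZZ hσ).comap π) : x * y = y * x := by
  obtain ⟨b, h, e⟩ := hx
  obtain ⟨d, h', e'⟩ := hy
  exact hZ e e'

include hZ in
/-- Lifts of `Z` commute with lifts of `U`. -/
lemma Zh_comm_U {x y : Γ} (hx : x ∈ (ZZ hσ).comap π) (hy : y ∈ (UU hσ).comap π) : x * y = y * x := by
  obtain ⟨b, h, e⟩ := hx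
  obtain ⟨c, d, h', e'⟩ := hy
  exact hZ e e'

/-- Commutators of lifts of `U` are lifts of `Z`. -/
lemma comm_mem_Zh {x y : Γ} (hx : x ∈ (UU hσ).comap π) (hy : y ∈ (UU hσ).comap π) : ⁅x, y⁆ ∈ (ZZ hσ).comap π := by
  obtain ⟨a, b, h, e⟩ := hx
  obtain ⟨c, d, h', e'⟩ := hy
  obtain ⟨he, e2⟩ := qq_comm hσ h h'
  refine ⟨_, he, ?_⟩
  rw [map_commutatorElement, e, e', e2]

include hZ in
/-- The commutator only depends on the first coordinates. -/
lemma comm_indep {x x' y y' : Γ} {a b b' c d d' : F} {h : b + σ b + a * σ a = 0} {h₁ : b' + σ b' + a * σ a = 0}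
    {h' : d + σ d + c * σ c = 0} {h₁' : d' + σ d' + c * σ c = 0}
    (hx : π x = qq hσ a b h) (hx' : π x' = qq hσ a b' h₁) (hy : π y = qq hσ c d h') (hy' : π y' = qq hσ c d' h₁') :
    ⁅x, y⁆ = ⁅x', y'⁆ := by
  have hxm : x ∈ (UU hσ).comap π := ⟨_, _, _, hx⟩
  have hx'm : x' ∈ (UU hσ).comap π := ⟨_, _, _, hx'⟩
  have hym : y ∈ (UU hσ).comap π := ⟨_, _, _, hy⟩
  have hy'm : y' ∈ (UU hσ).comap π := ⟨_, _, _, hy'⟩
  have hz1 : x⁻¹ * x' ∈ (ZZ hσ).comap π := by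
    have hd : (b' - b) + σ (b' - b) + 0 * σ 0 = 0 := by
      rw [map_sub]
      linear_combination h₁ - h
    refine ⟨b' - b, hd, ?_⟩
    rw [map_mul, map_inv, hx, hx', qq_inv, qq_mul]
    refine qq_congr hσ _ (by ring) ?_
    linear_combination h
  have hz2 : y⁻¹ * y' ∈ (ZZ hσ).comap π := by
    have hd : (d' - d) + σ (d' - d) + 0 * σ 0 = 0 := by
      rw [map_sub]
      linear_combination h₁' - h'
    refine ⟨d' - d, hd, ?_⟩
    rw [map_mul, map_inv, hy, hy', qq_inv, qq_mul]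
    refine qq_congr hσ _ (by ring) ?_
    linear_combination h'
  have e1 : x' = x * (x⁻¹ * x') := by group
  have e2 : y' = y * (y⁻¹ * y') := by group
  rw [e1, comm_left_mul_of (show Commute (x⁻¹ * x') y' from Zh_comm_U hσ hZ hz1 hy'm), e2,
    comm_right_mul_of (show Commute (y⁻¹ * y') x from Zh_comm_U hσ hZ hz2 hxm)]

/-- The complement to the kernel in the preimage of `Z`. -/
theorem exists_R (hcen : π.ker ≤ center Γ) (hs : Function.Surjective π)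
    (hZ : ∀ {A B : Γ} {d a b : F} {hd : d + σ d + 0 * σ 0 = 0} {h : b + σ b + a * σ a = 0},
      π A = qq hσ 0 d hd → π B = qq hσ a b h → A * B = B * A)
    {t₀ : Fˣ} (hr : nrm σ (t₀ : F) ≠ 1) :
    ∃ R : Subgroup Γ, R ≤ (ZZ hσ).comap π ∧ (∀ y ∈ R, π y = 1 → y = 1) ∧
      (∀ x ∈ (ZZ hσ).comap π, ∃ y ∈ R, π y = π x) ∧
      (∀ (t : Fˣ) (H : Γ), π H = tt hσ t → ∀ y ∈ R, H * y * H⁻¹ ∈ R) := by
  classical
  obtain ⟨H₀, hH₀⟩ := hs (tt hσ t₀)
  set r : F := nrm σ (t₀ : F) with hrdef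
  have hrσ : σ r = r := Cfsg.Agent.Lib.PresSU3.sig_nrm hσ _
  have hrne : r - 1 ≠ 0 := sub_ne_zero.2 hr
  -- conjugation by the lifts of the torus preserves the preimage of `Z`
  have hconjZ : ∀ (t : Fˣ) (H : Γ), π H = tt hσ t → ∀ x ∈ (ZZ hσ).comap π, H * x * H⁻¹ ∈ (ZZ hσ).comap π := by
    rintro t H hH x ⟨b, h, e⟩
    have h2 := cstr_tt hσ t.ne_zero h
    have h3 : ac σ (t : F) * 0 = 0 := mul_zero _
    rw [h3] at h2
    refine ⟨_, h2, ?_⟩
    rw [map_mul, map_mul, map_inv, hH, e, tt_qq]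
    exact qq_congr hσ _ h3 rfl
  let Zh := (ZZ hσ).comap π
  have hcommZ : ∀ x ∈ Zh, ∀ y ∈ Zh, x * y = y * x := fun x hx y hy => Zh_comm hσ hZ hx hy
  have hψmem : ∀ x ∈ Zh, ⁅H₀, x⁆ ∈ Zh := by
    intro x hx
    rw [commutatorElement_def]
    exact mul_mem (hconjZ t₀ H₀ hH₀ x hx) (inv_mem hx)
  let ψ : Zh →* Γ := MonoidHom.mk' (fun x => ⁅H₀, (x : Γ)⁆) (by
    rintro ⟨x, hx⟩ ⟨y, hy⟩
    change ⁅H₀, x * y⁆ = ⁅H₀, x⁆ * ⁅H₀, y⁆
    have e1 : ⁅H₀, x * y⁆ = ⁅H₀, x⁆ * (x * ⁅H₀, y⁆ * x⁻¹) := by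
      simp only [commutatorElement_def]
      group
    rw [e1, hcommZ x hx _ (hψmem y hy), mul_inv_cancel_right])
  have hψ : ∀ x : Zh, ψ x = ⁅H₀, (x : Γ)⁆ := fun x => rfl
  have hψπ : ∀ (x : Γ) (b : F) (h : b + σ b + 0 * σ 0 = 0), π x = qq hσ 0 b h →
      ∃ h' : (r - 1) * b + σ ((r - 1) * b) + 0 * σ 0 = 0, π ⁅H₀, x⁆ = qq hσ 0 ((r - 1) * b) h' := by
    intro x b h e
    have hb : σ b = -b := by
      simp only [map_zero, mul_zero, add_zero] at h
      linear_combination h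
    have h' : (r - 1) * b + σ ((r - 1) * b) + 0 * σ 0 = 0 := by
      rw [map_mul, map_sub, map_one, hrσ, hb]
      simp only [map_zero]
      ring
    refine ⟨h', ?_⟩
    rw [map_commutatorElement, hH₀, e, commutatorElement_def, tt_qq, qq_inv, qq_mul]
    refine qq_congr hσ _ (by simp) ?_
    rw [hb, ← hrdef]
    simp only [map_zero, mul_zero]
    ring
  refine ⟨ψ.range, ?_, ?_, ?_, ?_⟩
  · rintro _ ⟨x, rfl⟩
    exact hψmem x x.2
  · rintro _ ⟨⟨x, b, h, e⟩, rfl⟩ hy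
    change ⁅H₀, x⁆ = 1
    change π ⁅H₀, x⁆ = 1 at hy
    obtain ⟨h', e2⟩ := hψπ x b h e
    rw [e2] at hy
    have hb0 : (r - 1) * b = 0 := by
      have e3 : qq hσ 0 ((r - 1) * b) h' = qq hσ 0 0 cstr_zero := by rw [hy, qq_zero]
      exact (Cfsg.Agent.Lib.PresSU3.qq_inj hσ e3).2
    have hb : b = 0 := (mul_eq_zero.1 hb0).resolve_left hrne
    have hx1 : π x = 1 := by
      rw [e, ← qq_zero hσ]
      exact qq_congr hσ _ rfl hb
    have hxc : x ∈ center Γ := hcen hx1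
    rw [commutatorElement_eq_one_iff_mul_comm]
    exact mem_center_iff.1 hxc H₀
  · rintro x ⟨b, h, e⟩
    have hb : σ b = -b := by
      simp only [map_zero, mul_zero, add_zero] at h
      linear_combination h
    set b' := b / (r - 1) with hb'
    have h1 : b' + σ b' + 0 * σ 0 = 0 := by
      rw [hb', map_div₀, map_sub, map_one, hrσ, hb]
      simp only [map_zero, mul_zero]
      field_simp
      ring
    obtain ⟨x', hx'⟩ := hs (qq hσ 0 b' h1)
    have hx'm : x' ∈ Zh := ⟨_, h1, hx'⟩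
    refine ⟨ψ ⟨x', hx'm⟩, ⟨_, rfl⟩, ?_⟩
    rw [hψ]
    obtain ⟨h', e2⟩ := hψπ x' b' h1 hx'
    change π ⁅H₀, x'⁆ = π x
    rw [e2, e]
    refine qq_congr hσ _ rfl ?_
    rw [hb']
    field_simp
  · rintro t H hH _ ⟨⟨x, hx⟩, rfl⟩
    refine ⟨⟨H * x * H⁻¹, hconjZ t H hH x hx⟩, ?_⟩
    change ⁅H₀, H * x * H⁻¹⁆ = H * ⁅H₀, x⁆ * H⁻¹
    have e1 : H * ⁅H₀, x⁆ * H⁻¹ = ⁅H * H₀ * H⁻¹, H * x * H⁻¹⁆ := by
      simp only [commutatorElement_def]
      group
    rw [e1]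
    refine comm_eq hcen ?_ rfl
    rw [map_mul, map_mul, map_inv, hH, hH₀, tt_inv, tt_mul, tt_mul]
    congr 1
    rw [mul_comm t t₀, mul_assoc, mul_inv_cancel, mul_one]

end step2

section main

variable (hcen : π.ker ≤ center Γ) (hs : Function.Surjective π)
include hcen hs

/-- The commutators of lifts of `U` lie in the complement `R`. -/
theorem comm_mem_R [Finite F] {p : ℕ} [Fact p.Prime] [CharP F p]
    (htr : ∀ a : F, ∃ b, b + σ b + a * σ a = 0)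
    (hZ : ∀ {A B : Γ} {d a b : F} {hd : d + σ d + 0 * σ 0 = 0} {h : b + σ b + a * σ a = 0},
      π A = qq hσ 0 d hd → π B = qq hσ a b h → A * B = B * A)
    {R : Subgroup Γ} (hRZ : R ≤ (ZZ hσ).comap π) (hR1 : ∀ y ∈ R, π y = 1 → y = 1)
    (hR2 : ∀ x ∈ (ZZ hσ).comap π, ∃ y ∈ R, π y = π x)
    (hR3 : ∀ (t : Fˣ) (H : Γ), π H = tt hσ t → ∀ y ∈ R, H * y * H⁻¹ ∈ R)
    {ζ : Fˣ} (hno : ∀ i : ℕ, ac σ (ζ : F) ^ (p ^ i) ≠ (ac σ (ζ : F))⁻¹)
    {x y : Γ} (hx : x ∈ (UU hσ).comap π) (hy : y ∈ (UU hσ).comap π) : ⁅x, y⁆ ∈ R := by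
  classical
  let Zh := (ZZ hσ).comap π
  let L : GG σ → Γ := Function.surjInv hs
  have hL : ∀ x, π (L x) = x := Function.surjInv_eq hs
  -- the retraction
  have hunique : ∀ y ∈ R, ∀ y' ∈ R, π y = π y' → y = y' := by
    intro y hy y' hy' e
    have h1 := hR1 (y⁻¹ * y') (mul_mem (inv_mem hy) hy') (by rw [map_mul, map_inv, e, inv_mul_cancel])
    exact inv_mul_eq_one.1 h1
  let rr : Γ → Γ := fun x => if hx : x ∈ Zh then Classical.choose (hR2 x hx) else 1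
  have hrr : ∀ x ∈ Zh, rr x ∈ R ∧ π (rr x) = π x := by
    intro x hx
    have := Classical.choose_spec (hR2 x hx)
    simp only [rr, dif_pos hx]
    exact this
  have hrr_eq : ∀ x ∈ Zh, ∀ y ∈ R, π y = π x → rr x = y := by
    intro x hx y hy e
    exact hunique _ (hrr x hx).1 _ hy ((hrr x hx).2.trans e.symm)
  have hcommZ : ∀ x ∈ Zh, ∀ y ∈ Zh, x * y = y * x := fun x hx y hy => Zh_comm hσ hZ hx hy
  let pp : Γ → Γ := fun x => x * (rr x)⁻¹
  have hpp1 : ∀ x ∈ Zh, π (pp x) = 1 := by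
    intro x hx
    simp only [pp, map_mul, map_inv, (hrr x hx).2, mul_inv_cancel]
  have hpp_mul : ∀ x ∈ Zh, ∀ y ∈ Zh, pp (x * y) = pp x * pp y := by
    intro x hx y hy
    have h1 : rr (x * y) = rr x * rr y :=
      hrr_eq _ (mul_mem hx hy) _ (mul_mem (hrr x hx).1 (hrr y hy).1) (by
        rw [map_mul, map_mul, (hrr x hx).2, (hrr y hy).2])
    simp only [pp, h1, _root_.mul_inv_rev]
    have h2 : (rr x)⁻¹ * y = y * (rr x)⁻¹ := (hcommZ _ (inv_mem (hRZ (hrr x hx).1)) y hy)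
    calc x * y * ((rr y)⁻¹ * (rr x)⁻¹) = x * y * (((rr y)⁻¹ * (rr x)⁻¹)) := rfl
      _ = x * (y * (rr y)⁻¹) * (rr x)⁻¹ := by group
      _ = x * ((rr x)⁻¹ * (y * (rr y)⁻¹)) := by
          rw [mul_assoc]
          congr 1
          have h3 : (rr x)⁻¹ * (y * (rr y)⁻¹) = (y * (rr y)⁻¹) * (rr x)⁻¹ :=
            hcommZ _ (inv_mem (hRZ (hrr x hx).1)) _ (mul_mem hy (inv_mem (hRZ (hrr y hy).1)))
          exact h3.symm
      _ = x * (rr x)⁻¹ * (y * (rr y)⁻¹) := by group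
  -- the lifts of the first coordinates
  choose bb hbb using htr
  let X : F → GG σ := fun a => qq hσ a (bb a) (hbb a)
  let Cm : F → F → Γ := fun a c => ⁅L (X a), L (X c)⁆
  have hXm : ∀ a, L (X a) ∈ (UU hσ).comap π := fun a => ⟨_, _, hbb a, hL _⟩
  have hCmZ : ∀ a c, Cm a c ∈ Zh := fun a c => comm_mem_Zh hσ (hXm a) (hXm c)
  have hCm_of : ∀ {u v : Γ} {a b c d : F} {h : b + σ b + a * σ a = 0} {h' : d + σ d + c * σ c = 0},
      π u = qq hσ a b h → π v = qq hσ c d h' → ⁅u, v⁆ = Cm a c := by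
    intro u v a b c d h h' hu hv
    exact comm_indep hσ hZ hu (hL _) hv (hL _)
  have hadd1 : ∀ a a' c, Cm (a + a') c = Cm a c * Cm a' c := by
    intro a a' c
    have h1 : π (L (X a) * L (X a')) = qq hσ (a + a') _ (cstr_mul hσ (hbb a) (hbb a')) := by
      rw [map_mul, hL, hL]
      exact qq_mul hσ _ _
    have e1 : Cm (a + a') c = ⁅L (X a) * L (X a'), L (X c)⁆ := (hCm_of h1 (hL _)).symm
    have e2 : ⁅L (X a) * L (X a'), L (X c)⁆ = L (X a) * ⁅L (X a'), L (X c)⁆ * (L (X a))⁻¹ * ⁅L (X a), L (X c)⁆ := by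
      simp only [commutatorElement_def]
      group
    rw [e1, e2]
    have e3 : L (X a) * ⁅L (X a'), L (X c)⁆ * (L (X a))⁻¹ = ⁅L (X a'), L (X c)⁆ := by
      have := Zh_comm_U hσ hZ (hCmZ a' c) (hXm a)
      rw [mul_inv_eq_iff_eq_mul]
      exact this.symm
    rw [e3]
    exact hcommZ _ (hCmZ a' c) _ (hCmZ a c)
  have hadd2 : ∀ a c c', Cm a (c + c') = Cm a c * Cm a c' := by
    intro a c c'
    have h1 : π (L (X c) * L (X c')) = qq hσ (c + c') _ (cstr_mul hσ (hbb c) (hbb c')) := by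
      rw [map_mul, hL, hL]
      exact qq_mul hσ _ _
    have e1 : Cm a (c + c') = ⁅L (X a), L (X c) * L (X c')⁆ := (hCm_of (hL _) h1).symm
    have e2 : ⁅L (X a), L (X c) * L (X c')⁆ = ⁅L (X a), L (X c)⁆ * (L (X c) * ⁅L (X a), L (X c')⁆ * (L (X c))⁻¹) := by
      simp only [commutatorElement_def]
      group
    rw [e1, e2]
    have e3 : L (X c) * ⁅L (X a), L (X c')⁆ * (L (X c))⁻¹ = ⁅L (X a), L (X c')⁆ := by
      have := Zh_comm_U hσ hZ (hCmZ a c') (hXm c)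
      rw [mul_inv_eq_iff_eq_mul]
      exact this.symm
    rw [e3]
  -- the form
  let φ : F → F → center Γ := fun a c => ⟨pp (Cm a c), hcen (hpp1 _ (hCmZ a c))⟩
  have hac0 : ac σ (ζ : F) ≠ 0 := by
    have h0 := ζ.ne_zero
    have h1 : σ (ζ : F) ≠ 0 := (map_ne_zero σ).2 h0
    simp [ac, h0, h1]
  let c₀ : Fˣ := Units.mk0 _ hac0
  letI : CommGroup (center Γ) := { (inferInstance : Group (center Γ)) with
    mul_comm := fun a b => Subtype.ext (mem_center_iff.1 b.2 _) }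
  have hφ : ∀ a c, φ a c = 1 := by
    refine bilin_frob (p := p) (C := center Γ) ?_ ?_ (c := c₀) ?_ ?_
    · intro a a' c
      apply Subtype.ext
      change pp (Cm (a + a') c) = pp (Cm a c) * pp (Cm a' c)
      rw [hadd1, hpp_mul _ (hCmZ a c) _ (hCmZ a' c)]
    · intro a c c'
      apply Subtype.ext
      change pp (Cm a (c + c')) = pp (Cm a c) * pp (Cm a c')
      rw [hadd2, hpp_mul _ (hCmZ a c) _ (hCmZ a c')]
    · intro a c
      apply Subtype.ext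
      change pp (Cm (ac σ (ζ : F) * a) (ac σ (ζ : F) * c)) = pp (Cm a c)
      obtain ⟨H, hH⟩ := hs (tt hσ ζ)
      have e1 : Cm (ac σ (ζ : F) * a) (ac σ (ζ : F) * c) = H * Cm a c * H⁻¹ := by
        have h1 : π (H * L (X a) * H⁻¹) = qq hσ _ _ (cstr_tt hσ ζ.ne_zero (hbb a)) := by
          rw [map_mul, map_mul, map_inv, hH, hL]
          exact tt_qq hσ ζ _
        have h2 : π (H * L (X c) * H⁻¹) = qq hσ _ _ (cstr_tt hσ ζ.ne_zero (hbb c)) := by
          rw [map_mul, map_mul, map_inv, hH, hL]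
          exact tt_qq hσ ζ _
        have e2 := hCm_of h1 h2
        rw [← e2]
        simp only [Cm, commutatorElement_def]
        group
      have e4 : rr (H * Cm a c * H⁻¹) = H * rr (Cm a c) * H⁻¹ := by
        refine hrr_eq _ ?_ _ (hR3 ζ H hH _ (hrr _ (hCmZ a c)).1) ?_
        · rw [← e1]
          exact hCmZ _ _
        · simp only [map_mul, map_inv, (hrr _ (hCmZ a c)).2]
      have hc : pp (Cm a c) ∈ center Γ := hcen (hpp1 _ (hCmZ a c))
      rw [e1]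
      change H * Cm a c * H⁻¹ * (rr (H * Cm a c * H⁻¹))⁻¹ = _
      rw [e4]
      have e5 : H * Cm a c * H⁻¹ * (H * rr (Cm a c) * H⁻¹)⁻¹ = H * pp (Cm a c) * H⁻¹ := by
        simp only [pp]
        group
      rw [e5, mem_center_iff.1 hc H, mul_inv_cancel_right]
    · intro i h
      apply hno i
      have e : ((c₀⁻¹ : Fˣ) : F) = (ac σ (ζ : F))⁻¹ := by simp [c₀]
      rw [e] at h
      exact h
  -- conclusion
  obtain ⟨a, b, h, e⟩ := hx
  obtain ⟨c, d, h', e'⟩ := hy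
  rw [hCm_of e e']
  have h1 : pp (Cm a c) = 1 := congrArg Subtype.val (hφ a c)
  have h2 : Cm a c = rr (Cm a c) := by
    have : Cm a c * (rr (Cm a c))⁻¹ = 1 := h1
    exact mul_inv_eq_one.1 this
  rw [h2]
  exact (hrr _ (hCmZ a c)).1

end main

end Cfsg.Agent.Lib.SUStem
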