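import Cfsg.Agent.Lib.SUStem.Pp
import Cfsg.Agent.Lib.Classical.HermOrders

/-!
# The unipotent subgroup of `SU₃`: the concrete field; the kernel of a stem extension has order prime to `p`
-/

set_option autoImplicit false
set_option linter.unusedSectionVars false
set_option linter.unusedVariables false
set_option linter.unusedSimpArgs false

namespace Cfsg.Agent.Lib.SUStem

open Cfsg Subgroup Matrix
open scoped commutatorElement
open Cfsg.Agent.Lib.PresSU3 (GG qq tt ac nrm cstr_mul cstr_inv cstr_zero qq_mul qq_zero qq_inv qq_congr tt_qq cstr_tt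
  tt_mul tt_inv hσ_frob exists_gen_units)
open Cfsg.Agent.Lib.HermCount.Field

universe u

variable {F : Type u} [Field F] [Fintype F] {q : ℕ} (hF : Fintype.card F = q ^ 2)

include hF

lemma htr_frob (a : F) : ∃ b, b + frobHom hF b + a * frobHom hF a = 0 := by
  have h1 : (-(a * frobHom hF a)) ^ q = -(a * frobHom hF a) := by
    have : frobHom hF (-(a * frobHom hF a)) = -(a * frobHom hF a) := by
      rw [map_neg, map_mul, hσ_frob hF, mul_comm]
    exact this
  obtain ⟨s, hs⟩ := exists_trace hF _ h1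
  refine ⟨s, ?_⟩
  change s + s ^ q + _ = 0
  rw [hs]
  ring

lemma hdiff_frob (e : F) (he : e + frobHom hF e = 0) : ∃ v, e = v - frobHom hF v := by
  obtain ⟨θ, hθ⟩ := exists_frob_ne hF
  set σ := frobHom hF with hσ
  have hσσ : ∀ x, σ (σ x) = x := hσ_frob hF
  have hθ' : σ θ ≠ θ := hθ
  set s := θ - σ θ with hs
  have hs0 : s ≠ 0 := sub_ne_zero.2 hθ'.symm
  have hss : σ s = -s := by
    rw [hs, map_sub, hσσ]
    ring
  have hse : σ e = -e := by linear_combination he
  have hr : σ (e / s) = e / s := by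
    rw [map_div₀, hss, hse, neg_div_neg_eq]
  refine ⟨(e / s) * θ, ?_⟩
  rw [map_mul, hr, ← mul_sub, ← hs]
  field_simp

/-- A unit of norm one with cube different from `1`. -/
lemma exists_t (hq : 3 ≤ q) : ∃ t : Fˣ, (t : F) * frobHom hF t = 1 ∧ (t : F) ^ 3 ≠ 1 := by
  obtain ⟨ζ, hgen, hord⟩ := exists_gen_units hF
  refine ⟨ζ ^ (q - 1), Cfsg.Agent.Lib.PresSU3.c0_norm hF hord ζ (by omega), ?_⟩
  intro h
  have h1 : (ζ ^ (q - 1)) ^ 3 = 1 := Units.ext (by simpa using h)
  rw [← pow_mul] at h1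
  have h2 := orderOf_dvd_of_pow_eq_one h1
  rw [hord] at h2
  have e : q ^ 2 - 1 = (q - 1) * (q + 1) := by
    obtain ⟨r, rfl⟩ : ∃ r, q = r + 1 := ⟨q - 1, by omega⟩
    simp only [Nat.add_sub_cancel]
    have : (r + 1) ^ 2 = r * (r + 1 + 1) + 1 := by ring
    omega
  rw [e] at h2
  have h3 : q + 1 ∣ 3 := Nat.dvd_of_mul_dvd_mul_left (by omega) h2
  have := Nat.le_of_dvd (by norm_num) h3
  omega

/-- A unit of norm different from one. -/
lemma exists_t0 (hq : 3 ≤ q) : ∃ t : Fˣ, nrm (frobHom hF) (t : F) ≠ 1 := by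
  obtain ⟨ζ, hgen, hord⟩ := exists_gen_units hF
  refine ⟨ζ, ?_⟩
  intro h
  have h1 : ζ ^ (q + 1) = 1 := by
    apply Units.ext
    have : (ζ : F) * (ζ : F) ^ q = 1 := h
    simp only [Units.val_pow_eq_pow_val, Units.val_one]
    rw [pow_succ, mul_comm]
    exact this
  have h2 := orderOf_dvd_of_pow_eq_one h1
  rw [hord] at h2
  have h3 := Nat.le_of_dvd (by omega) h2
  have h4 : q ^ 2 ≥ 3 * q := by nlinarith
  omega

/-- The scalar `ac ζ` has no conjugate equal to its inverse. -/
lemma hno_frob (hq : 3 ≤ q) {p : ℕ} [Fact p.Prime] [CharP F p] {ζ : Fˣ} (hord : orderOf ζ = q ^ 2 - 1) (i : ℕ) :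
    ac (frobHom hF) (ζ : F) ^ (p ^ i) ≠ (ac (frobHom hF) (ζ : F))⁻¹ := by
  have hp : p.Prime := Fact.out
  obtain ⟨n, hpp, hqn⟩ := FiniteField.card F p
  -- `q` is a power of `p`
  have hdvd : q ∣ p ^ (n : ℕ) := by
    rw [← hqn, hF]
    exact dvd_pow_self q (by norm_num)
  obtain ⟨f, hf, rfl⟩ := (Nat.dvd_prime_pow hp).1 hdvd
  have hn : (n : ℕ) = 2 * f := by
    have h1 : p ^ (n : ℕ) = p ^ (2 * f) := by
      rw [← hqn, hF, ← pow_mul, mul_comm]
    exact Nat.pow_right_injective hp.two_le h1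
  set q := p ^ f with hqdef
  -- the unit
  let c : Fˣ := ζ ^ 2 * (ζ ^ q)⁻¹
  have hc : (c : F) = ac (frobHom hF) (ζ : F) := by
    simp [c, ac, frobHom_apply, div_eq_mul_inv]
  have hcard : ∀ u : Fˣ, u ^ (p ^ (2 * f)) = u := by
    intro u
    apply Units.ext
    have := FiniteField.pow_card (u : F)
    rw [hqn, hn] at this
    simpa using this
  have key : ∀ i, c ^ (p ^ i) ≠ c⁻¹ := by
    intro i
    induction i using Nat.strong_induction_on with
    | _ i ih =>
      intro hi
      by_cases h1 : i ≤ f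
      · -- the final case
        have h2 : c * c ^ (p ^ i) = 1 := by rw [hi]; group
        have h3 : (ζ ^ (q - 2)) ^ (p ^ i + 1) = 1 := by
          have e1 : c = (ζ ^ (q - 2))⁻¹ := by
            simp only [c]
            have : ζ ^ q = ζ ^ (q - 2) * ζ ^ 2 := by
              rw [← pow_add, Nat.sub_add_cancel (by omega)]
            rw [this, _root_.mul_inv_rev]
            simp
          have h4 : c ^ (p ^ i + 1) = 1 := by
            rw [pow_succ, mul_comm]
            exact h2
          rw [e1, inv_pow, inv_eq_one] at h4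
          exact h4
        rw [← pow_mul] at h3
        have h4 := orderOf_dvd_of_pow_eq_one h3
        rw [hord] at h4
        exact no_conj_aux hp hqdef hq h1 h4
      · by_cases h2 : i < 2 * f
        · -- replace `i` by `2 f - i`
          have h3 : c ^ (p ^ (2 * f - i)) = c⁻¹ := by
            have h4 : (c ^ (p ^ i)) ^ (p ^ (2 * f - i)) = c := by
              rw [← pow_mul, ← pow_add, Nat.add_sub_cancel' h2.le, hcard]
            rw [hi, inv_pow] at h4
            exact inv_eq_iff_eq_inv.1 h4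
          exact ih (2 * f - i) (by omega) h3
        · -- reduce `i`
          have h3 : c ^ (p ^ (i - 2 * f)) = c⁻¹ := by
            have h4 : c ^ (p ^ i) = (c ^ (p ^ (2 * f))) ^ (p ^ (i - 2 * f)) := by
              rw [← pow_mul, ← pow_add, Nat.add_sub_cancel' (by omega)]
            rw [hi, hcard] at h4
            exact h4.symm
          have hf0 : 0 < f := by
            by_contra hh
            have : f = 0 := by omega
            subst this
            simp [hqdef] at hq
          exact ih (i - 2 * f) (by omega) h3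
  intro h
  apply key i
  apply Units.ext
  simp only [Units.val_pow_eq_pow_val, Units.val_inv_eq_inv_val, hc]
  exact h

variable {Γ : Type*} [Group Γ] {π : Γ →* GG (frobHom hF)}

/-- The main statement for the unipotent subgroup. -/
theorem pow_index_U (hq : 3 ≤ q) (hcen : π.ker ≤ center Γ) (hs : Function.Surjective π) {z : Γ} (hz : π z = 1)
    (hzc : z ∈ commutator Γ) [Finite Γ] [(((UU (hσ_frob hF)).comap π)).FiniteIndex] :
    z ^ ((UU (hσ_frob hF)).comap π).index = 1 := by
  classical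
  set hσ := hσ_frob hF
  obtain ⟨p, hpc⟩ := CharP.exists F
  obtain ⟨n, hpp, hqn⟩ := FiniteField.card F p
  haveI : Fact p.Prime := ⟨hpp⟩
  obtain ⟨t, ht1, ht2⟩ := exists_t hF hq
  obtain ⟨t₀, ht₀⟩ := exists_t0 hF hq
  obtain ⟨ζ, hgen, hord⟩ := exists_gen_units hF
  have hZ : ∀ {A B : Γ} {d a b : F} {hd : d + frobHom hF d + 0 * frobHom hF 0 = 0}
      {h : b + frobHom hF b + a * frobHom hF a = 0},
      π A = qq hσ 0 d hd → π B = qq hσ a b h → A * B = B * A := fun hA hB =>
    comm_Z_U hσ hcen hs (htr_frob hF) (hdiff_frob hF) ht1 ht2 hA hB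
  obtain ⟨R, hRZ, hR1, hR2, hR3⟩ := exists_R hσ hcen hs hZ ht₀
  have hno := hno_frob hF hq (p := p) hord
  have h1 := Cfsg.Agent.Lib.Schur.Stem.pow_index_mem_commutator ((UU hσ).comap π) (hcen hz) hzc
  have h2 : (commutator ((UU hσ).comap π)).map ((UU hσ).comap π).subtype ≤ R := by
    rw [_root_.commutator_def, Subgroup.map_commutator, Subgroup.commutator_le]
    rintro _ ⟨x, -, rfl⟩ _ ⟨y, -, rfl⟩
    exact comm_mem_R hσ hcen hs (htr_frob hF) hZ hRZ hR1 hR2 hR3 hno x.2 y.2
  refine hR1 _ (h2 h1) ?_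
  rw [map_pow, hz, one_pow]

end Cfsg.Agent.Lib.SUStem
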