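import Cfsg.Agent.Lib.SUStem.Pp2
import Cfsg.Agent.Lib.Schur.SpStem.RootComm

/-!
# General tools: transfer, cyclic tops, the kernel of stem extensions of `SL₂`
-/

set_option autoImplicit false
set_option linter.unusedSectionVars false
set_option linter.unusedVariables false
set_option linter.unusedSimpArgs false

namespace Cfsg.Agent.Lib.SUStem

open Cfsg Subgroup Matrix
open scoped commutatorElement
open Cfsg.Agent.Lib.Schur.SLnStem (comm_eq central_ker comm_ker)
open Cfsg.Agent.Lib.Schur.SpStem (conj_lift)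

section transfer

variable {Γ G : Type*} [Group Γ] [Group G] {π : Γ →* G}

/-- The transfer bound. -/
theorem pow_index_of [Finite Γ] [Finite G] (hπ : IsStemExtension π) (X : Subgroup G) {R : Subgroup Γ}
    (hR1 : ∀ y ∈ R, π y = 1 → y = 1) (hR2 : ∀ x ∈ X.comap π, ∀ y ∈ X.comap π, ⁅x, y⁆ ∈ R) {z : Γ} (hz : π z = 1) :
    z ^ X.index = 1 := by
  have h1 := Cfsg.Agent.Lib.Schur.Stem.pow_index_mem_commutator (X.comap π) (hπ.2.1 hz) (hπ.2.2 hz)
  have h2 : (commutator (X.comap π)).map (X.comap π).subtype ≤ R := by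
    rw [_root_.commutator_def, Subgroup.map_commutator, Subgroup.commutator_le]
    rintro _ ⟨x, -, rfl⟩ _ ⟨y, -, rfl⟩
    exact hR2 x x.2 y y.2
  have h3 := hR1 _ (h2 h1) (by rw [map_pow, hz, one_pow])
  rwa [Subgroup.index_comap_of_surjective _ hπ.1] at h3

/-- A commutator formula. -/
lemma comm_formula {u v w t : Γ} (h : v * t = t * v) :
    ⁅u * v, w * t⁆ = u * (v * w * v⁻¹) * (t * u * t⁻¹)⁻¹ * w⁻¹ := by
  have h' : t * v⁻¹ = v⁻¹ * t := by
    have : Commute t v := h.symm
    exact this.inv_right.eq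
  simp only [commutatorElement_def]
  calc u * v * (w * t) * (u * v)⁻¹ * (w * t)⁻¹ = u * v * w * (t * v⁻¹) * u⁻¹ * t⁻¹ * w⁻¹ := by group
    _ = u * v * w * (v⁻¹ * t) * u⁻¹ * t⁻¹ * w⁻¹ := by rw [h']
    _ = _ := by group

/-- Cyclic tops: if `X = L ⟨h⟩`, with a section `ρ` over the perfect normal subgroup `L`, then the
commutators of lifts of `X` lie in the image of `ρ`. -/
theorem comm_mem_of_top (hcen : π.ker ≤ center Γ) (hs : Function.Surjective π) {X L : Subgroup G}
    (hper : commutator L = ⊤) {ρ : L →* Γ} (hρ : ∀ l, π (ρ l) = l) (hnorm : ∀ g ∈ X, ∀ l ∈ L, g * l * g⁻¹ ∈ L)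
    {h : G} (hhX : h ∈ X) (hdec : ∀ x ∈ X, ∃ (n : ℕ) (l : G), l ∈ L ∧ x = l * h ^ n) {x y : Γ}
    (hx : π x ∈ X) (hy : π y ∈ X) : ⁅x, y⁆ ∈ ρ.range := by
  obtain ⟨H, hH⟩ := hs h
  -- conjugation
  have hconj : ∀ (g : Γ), π g ∈ X → ∀ l : L, ∃ l' : L, g * ρ l * g⁻¹ = ρ l' := by
    intro g hg l
    let cg : L →* L :=
      { toFun := fun k => ⟨π g * k * (π g)⁻¹, hnorm _ hg _ k.2⟩
        map_one' := by
          apply Subtype.ext
          simp
        map_mul' := by
          intro a b
          apply Subtype.ext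
          simp only [Subgroup.coe_mul]
          group }
    refine ⟨cg l, ?_⟩
    refine conj_lift hcen hper ρ (ρ.comp cg) g (fun k => ?_) l
    rw [MonoidHom.comp_apply, hρ, hρ]
    rfl
  have hdec' : ∀ g : Γ, π g ∈ X → ∃ (n : ℕ) (l : L) (a : Γ), π a = 1 ∧ g = ρ l * H ^ n * a := by
    intro g hg
    obtain ⟨n, l, hl, e⟩ := hdec _ hg
    refine ⟨n, ⟨l, hl⟩, (ρ ⟨l, hl⟩ * H ^ n)⁻¹ * g, ?_, by group⟩
    rw [map_mul, map_inv, map_mul, map_pow, hH, hρ, e]
    simp
  have hHX : ∀ n : ℕ, π (H ^ n) ∈ X := fun n => by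
    rw [map_pow, hH]
    exact pow_mem hhX n
  obtain ⟨n, l, a, ha, rfl⟩ := hdec' x hx
  obtain ⟨m, l', a', ha', rfl⟩ := hdec' y hy
  have hca : ∀ g, g * a = a * g := fun g => central_ker hcen ha g
  have hca' : ∀ g, g * a' = a' * g := fun g => central_ker hcen ha' g
  have e1 : ⁅ρ l * H ^ n * a, ρ l' * H ^ m * a'⁆ = ⁅ρ l * H ^ n, ρ l' * H ^ m⁆ := by
    rw [comm_right_mul_of (show Commute a' _ from (hca' _).symm), comm_left_mul_of (show Commute a _ from (hca _).symm)]
  rw [e1, comm_formula (show H ^ n * H ^ m = H ^ m * H ^ n from (Commute.refl H).pow_pow n m)]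
  obtain ⟨l₁, e₁⟩ := hconj _ (hHX n) l'
  obtain ⟨l₂, e₂⟩ := hconj _ (hHX m) l
  rw [e₁, e₂]
  exact mul_mem (mul_mem (mul_mem ⟨_, rfl⟩ ⟨_, rfl⟩) (inv_mem ⟨_, rfl⟩)) (inv_mem ⟨_, rfl⟩)

end transfer

section SL2

open Cfsg.Agent.Lib.Schur.Stem Cfsg.Agent.Lib.Schur.SL2Stem Cfsg.Agent.Lib.Classical.SL2Sylow
open scoped MatrixGroups Pointwise

universe u

variable {F : Type*} [Field F] [Fintype F] {Γ : Type u} [Group Γ] [Finite Γ]

/-- A stem extension of `SL₂(F)` whose kernel has order prime to the characteristic is trivial. -/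
theorem sl2_trivial_of_coprime {σ : Γ →* SL(2, F)} (hσ : IsStemExtension σ) {p : ℕ} [Fact p.Prime] [CharP F p]
    (hp : ∀ z, σ z = 1 → orderOf z ≠ p) {z : Γ} (hz : σ z = 1) : z = 1 := by
  classical
  have hk : Nat.card σ.ker ∣ 1 := by
    refine card_ker_dvd_of_sylow hσ 1 one_ne_zero ?_
    intro r _ P
    obtain ⟨n, hpp, hqn⟩ := FiniteField.card F p
    by_cases hrp : r = p
    · subst hrp
      -- the kernel is a `p`-group without elements of order `p`
      have hKp : IsPGroup r (σ.subgroupMap (P : Subgroup Γ)).ker := P.2.to_subgroup _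
      have hall : ∀ x : (σ.subgroupMap (P : Subgroup Γ)).ker, x = 1 := by
        by_contra hcon
        push Not at hcon
        obtain ⟨x, hx⟩ := hcon
        haveI : Nontrivial (σ.subgroupMap (P : Subgroup Γ)).ker := ⟨⟨x, 1, hx⟩⟩
        obtain ⟨k, hk0, hk⟩ := hKp.nontrivial_iff_card.1 this
        have hdvd : r ∣ Nat.card (σ.subgroupMap (P : Subgroup Γ)).ker := by
          rw [hk]
          exact dvd_pow_self r hk0.ne'
        obtain ⟨y, hy⟩ := exists_prime_orderOf_dvd_card' r hdvd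
        apply hp ((y : P) : Γ) (mem_ker_subgroupMap.1 y.2)
        rw [Subgroup.orderOf_coe, Subgroup.orderOf_coe]
        exact hy
      have : Subsingleton (σ.subgroupMap (P : Subgroup Γ)).ker := ⟨fun a b => by rw [hall a, hall b]⟩
      rw [Nat.card_eq_one_iff_unique.2 ⟨this, ⟨1⟩⟩]
    have hstem := isStem_sylow hσ P
    by_cases hr2 : r = 2
    · subst hr2
      have hodd : Odd (Fintype.card F) := by
        rw [hqn]
        exact (hpp.odd_of_ne_two (Ne.symm hrp)).pow
      have hG : IsPGroup 2 ((P : Subgroup Γ).map σ) :=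
        IsPGroup.of_surjective P.2 (σ.subgroupMap (P : Subgroup Γ)) (σ.subgroupMap_surjective _)
      have huniq : ∀ H K : Subgroup ((P : Subgroup Γ).map σ), Nat.card H = 2 → Nat.card K = 2 → H = K := by
        have hinv : ∀ H : Subgroup ((P : Subgroup Γ).map σ), Nat.card H = 2 →
            ∀ z ∈ H, z ≠ 1 →
              (((z : (P : Subgroup Γ).map σ) : Matrix.SpecialLinearGroup (Fin 2) F) :
                Matrix (Fin 2) (Fin 2) F) = -1 := by
          intro H hH z hz hz1
          have h1 : z * z = 1 := by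
            have h2 : (⟨z, hz⟩ : H) ^ Nat.card H = 1 := pow_card_eq_one'
            rw [hH, pow_two] at h2
            exact congrArg Subtype.val h2
          refine Cfsg.Agent.S0268.result hodd _ ?_ ?_
          · intro h
            exact hz1 (Subtype.ext h)
          · exact congrArg Subtype.val h1
        intro H K hH hK
        refine Subgroup.eq_of_le_of_card_ge ?_ (by rw [hH, hK])
        intro x hx
        by_cases hx1 : x = 1
        · rw [hx1]; exact one_mem _
        have hnt : Nontrivial K := by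
          rw [← Finite.one_lt_card_iff_nontrivial, hK]
          norm_num
        obtain ⟨⟨y, hy⟩, hy1⟩ := exists_ne (1 : K)
        have hy1' : y ≠ 1 := fun h => hy1 (Subtype.ext h)
        have : x = y := by
          apply Subtype.ext
          apply Subtype.ext
          rw [hinv H hH x hx hx1, hinv K hK y hy hy1']
        rwa [this]
      rcases Cfsg.Agent.S0016.result 2 hG huniq with hcyc | ⟨-, m, ⟨e⟩⟩
      · exact StemBound.of_isCyclic _ _ hstem
      · have : NeZero (2 ^ m) := ⟨by positivity⟩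
        exact (StemBound.of_quaternion (2 ^ m)).congr e.symm _ _ hstem
    · have hcyc : IsCyclic ((P : Subgroup Γ).map σ) :=
        Cfsg.Agent.S0262.result p r hr2 hrp (P.mapSurjective hσ.1)
      exact StemBound.of_isCyclic _ _ hstem
  have h1 : Nat.card σ.ker = 1 := Nat.dvd_one.1 hk
  have h2 : Subsingleton σ.ker := (Nat.card_eq_one_iff_unique.mp h1).1
  have h3 := congrArg Subtype.val (Subsingleton.elim (⟨z, hz⟩ : σ.ker) 1)
  exact h3

end SL2

end Cfsg.Agent.Lib.SUStem
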