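import Cfsg.Agent.Lib.PresU.OInj
import Cfsg.Agent.Lib.Schur.SpStem.Tor

/-!
# The diagonal torus of `GO σ ι` and its action on the Levi subgroup
-/

set_option autoImplicit false
set_option linter.unusedSectionVars false
set_option linter.unusedVariables false
set_option linter.unusedSimpArgs false

namespace Cfsg.Agent.Lib.SUStem

open Cfsg Subgroup Matrix
open Cfsg.Agent.Lib.PresU Cfsg.Agent.Lib.PresSp.Mono Cfsg.Agent.Lib.PresSLn.TwoGen Cfsg.Agent.Lib.Schur.SpStem

section Tor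

variable {ι : Type*} [Fintype ι] [DecidableEq ι] {K : Type*} [Field K] {σ : K →+* K}

/-- The conjugate inverse of a vector of units. -/
def cjv (σ : K →+* K) (v : ι → Kˣ) : ι → Kˣ := fun i => (Units.map (σ : K →* K) (v i))⁻¹

lemma cjv_val (v : ι → Kˣ) (i : ι) : (cjv σ v i : K) = (σ (v i))⁻¹ := by
  simp [cjv]

lemma cjv_mul (v w : ι → Kˣ) : cjv σ (v * w) = cjv σ v * cjv σ w := by
  funext i
  simp [cjv, mul_comm]

lemma cjv_one : cjv σ (1 : ι → Kˣ) = 1 := by
  funext i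
  simp [cjv]

/-- The entry at the anisotropic vector. -/
def dlt (σ : K →+* K) (v : ι → Kˣ) : Kˣ := ∏ i, (Units.map (σ : K →* K) (v i) * (v i)⁻¹)

lemma dlt_mul (v w : ι → Kˣ) : dlt σ (v * w) = dlt σ v * dlt σ w := by
  simp only [dlt, Pi.mul_apply, ← Finset.prod_mul_distrib]
  refine Finset.prod_congr rfl fun i _ => ?_
  simp only [map_mul, _root_.mul_inv]
  exact mul_mul_mul_comm _ _ _ _

lemma dlt_one : dlt σ (1 : ι → Kˣ) = 1 := by
  simp [dlt]

/-- The diagonal matrix. -/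
def dOm (σ : K →+* K) (v : ι → Kˣ) : Matrix (Io ι) (Io ι) K :=
  fromBlocks (fromBlocks (dgM v) 0 0 (dgM (cjv σ v))) 0 0 (dgM (fun _ : Unit => dlt σ v))

lemma dOm_mul (v w : ι → Kˣ) : dOm σ (v * w) = dOm σ v * dOm σ w := by
  have e : (fun _ : Unit => dlt σ (v * w)) = (fun _ : Unit => dlt σ v) * (fun _ : Unit => dlt σ w) := by
    funext _
    simp [dlt_mul]
  rw [dOm, dOm, dOm, fromBlocks_multiply, fromBlocks_multiply, cjv_mul, e, dgM_mul, dgM_mul, dgM_mul]
  simp

lemma dOm_one : dOm σ (1 : ι → Kˣ) = 1 := by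
  have e : (fun _ : Unit => dlt σ (1 : ι → Kˣ)) = 1 := by
    funext _
    simp [dlt_one]
  rw [dOm, cjv_one, e, dgM_one, dgM_one, fromBlocks_one, fromBlocks_one]

lemma det_dOm (v : ι → Kˣ) : (dOm σ v).det = 1 := by
  rw [dOm, det_fromBlocks_zero₁₂, det_fromBlocks_zero₁₂]
  simp only [dgM, det_diagonal, Fintype.univ_unit, Finset.prod_singleton, dlt, Units.coe_prod]
  simp only [cjv_val, Units.val_mul, Units.coe_map, MonoidHom.coe_coe, Units.val_inv_eq_inv_val]
  rw [Finset.prod_mul_distrib, Finset.prod_inv_distrib, Finset.prod_inv_distrib]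
  have h1 : ∏ i, (v i : K) ≠ 0 := Finset.prod_ne_zero_iff.2 fun i _ => (v i).ne_zero
  have h2 : ∏ i, σ (v i : K) ≠ 0 := Finset.prod_ne_zero_iff.2 fun i _ => (map_ne_zero σ).2 (v i).ne_zero
  field_simp

lemma dgM_mapT (v : ι → Kˣ) : (dgM v).map σ = dgM (fun i => Units.map (σ : K →* K) (v i)) := by
  ext r t
  simp only [dgM, map_apply, diagonal_apply]
  split_ifs <;> simp

lemma isU_dOm (hσ : ∀ x, σ (σ x) = x) (v : ι → Kˣ) : IsU σ (J1 ι K) (dOm σ v) := by
  have e0 : ((0 : Matrix ι ι K)).map σ = 0 := Matrix.map_zero _ (map_zero σ)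
  have e1 : ((0 : Matrix (ι ⊕ ι) Unit K)).map σ = 0 := Matrix.map_zero _ (map_zero σ)
  have e2 : ((0 : Matrix Unit (ι ⊕ ι) K)).map σ = 0 := Matrix.map_zero _ (map_zero σ)
  have hA : dgM (cjv σ v) * dgM (fun i => Units.map (σ : K →* K) (v i)) = (1 : Matrix ι ι K) := by
    rw [← dgM_mul, ← dgM_one]
    congr 1
    funext i
    simp [cjv]
  have hB : dgM v * dgM (fun i => Units.map (σ : K →* K) (cjv σ v i)) = (1 : Matrix ι ι K) := by
    rw [← dgM_mul, ← dgM_one]
    congr 1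
    funext i
    apply Units.ext
    simp [cjv, hσ]
  have hC : dgM (fun _ : Unit => dlt σ v) * dgM (fun _ : Unit => Units.map (σ : K →* K) (dlt σ v)) = (1 : Matrix Unit Unit K) := by
    rw [← dgM_mul, ← dgM_one]
    congr 1
    funext _
    apply Units.ext
    simp only [dlt, Pi.mul_apply, Pi.one_apply, map_prod, Units.val_mul, Units.coe_prod, Units.coe_map, MonoidHom.coe_coe,
      Units.val_inv_eq_inv_val, map_mul, map_inv₀, hσ, Units.val_one]
    rw [← Finset.prod_mul_distrib]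
    refine Finset.prod_eq_one fun i _ => ?_
    have h1 := (v i).ne_zero
    have h2 := (map_ne_zero σ).2 h1
    field_simp
  have hm : (dOm σ v).map σ = fromBlocks (fromBlocks (dgM fun i => Units.map (σ : K →* K) (v i)) 0 0
      (dgM fun i => Units.map (σ : K →* K) (cjv σ v i))) 0 0 (dgM fun _ : Unit => Units.map (σ : K →* K) (dlt σ v)) := by
    rw [dOm, fromBlocks_map, fromBlocks_map, dgM_mapT, dgM_mapT, dgM_mapT, e0, e1, e2]
  have ht : (dOm σ v)ᵀ = dOm σ v := by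
    rw [dOm, fromBlocks_transpose, fromBlocks_transpose, dgM_tr, dgM_tr, dgM_tr]
    simp
  rw [IsU, ht, hm, dOm, J1, JE]
  simp only [fromBlocks_multiply, Matrix.zero_mul, Matrix.mul_zero, add_zero, zero_add, Matrix.mul_one, Matrix.one_mul,
    hA, hB, hC]

/-- The torus of the odd-dimensional unitary group. -/
def TorO (hσ : ∀ x, σ (σ x) = x) : (ι → Kˣ) →* GO σ ι where
  toFun v := ⟨⟨dOm σ v, det_dOm v⟩, isU_dOm hσ v⟩
  map_one' := SUg_ext dOm_one
  map_mul' v w := SUg_ext (dOm_mul v w)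

lemma coe_TorO (hσ : ∀ x, σ (σ x) = x) (v : ι → Kˣ) : (TorO hσ v).1.1 = dOm σ v := rfl

/-- The action of the torus on the Levi subgroup. -/
lemma TorO_lvO (hσ : ∀ x, σ (σ x) = x) (v : ι → Kˣ) (l : SpecialLinearGroup ι K) :
    TorO hσ v * lvO hσ l * (TorO hσ v)⁻¹ = lvO hσ (cdg v l) := by
  rw [mul_inv_eq_iff_eq_mul]
  apply SUg_ext
  change dOm σ v * levO σ l = levO σ (cdg v l) * dOm σ v
  have e1 : dgM v * l.1 = (cdg v l).1 * dgM v := by
    rw [coe_cdg, Matrix.mul_assoc, dgM_inv_mul, Matrix.mul_one]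
  have e2 : dgM (cjv σ v) * hh σ (l⁻¹).1 = hh σ ((cdg v l)⁻¹).1 * dgM (cjv σ v) := by
    have h1 : hh σ ((cdg v l)⁻¹).1 = dgM (cjv σ v) * hh σ (l⁻¹).1 * dgM (fun i => Units.map (σ : K →* K) (v i)) := by
      have h2 : ((cdg v l)⁻¹).1 = dgM v * (l⁻¹).1 * dgM v⁻¹ := by
        rw [← map_inv, coe_cdg]
      have h3 : ∀ u : ι → Kˣ, hh σ (dgM u) = dgM (fun i => Units.map (σ : K →* K) (u i)) := by
        intro u
        rw [hh, dgM_mapT, dgM_tr]
      rw [h2, hh_mul, hh_mul, h3, h3, ← Matrix.mul_assoc]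
      congr 2
    rw [h1, Matrix.mul_assoc, Matrix.mul_assoc (dgM (cjv σ v)), ← dgM_mul]
    have h4 : (fun i => Units.map (σ : K →* K) (v i)) * cjv σ v = 1 := by
      funext i
      simp [cjv]
    rw [h4, dgM_one, Matrix.mul_one]
  rw [dOm, levO, levO, ex, ex, levM, levM, fromBlocks_multiply, fromBlocks_multiply, fromBlocks_multiply,
    fromBlocks_multiply]
  simp only [Matrix.zero_mul, Matrix.mul_zero, add_zero, zero_add, Matrix.mul_one, Matrix.one_mul, e1, e2]

/-- The action of the torus on a root element. -/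
lemma TorO_T (hσ : ∀ x, σ (σ x) = x) (v : ι → Kˣ) {i j : ι} (h : i ≠ j) (c : K) :
    TorO hσ v * lvO hσ (TT h c) * (TorO hσ v)⁻¹ = lvO hσ (TT h ((v i : K) * c * ((v j)⁻¹ : Kˣ))) := by
  rw [TorO_lvO, cdg_T]

/-- The map from the Levi subgroup is injective. -/
lemma lvO_inj (hσ : ∀ x, σ (σ x) = x) : Function.Injective (lvO (σ := σ) (ι := ι) hσ) := by
  intro l l' h
  have h1 : levO σ l = levO σ l' := congrArg (fun g : GO σ ι => g.1.1) h
  rw [levO, levO, ex, ex, levM, levM] at h1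
  have h2 := (fromBlocks_inj.1 (fromBlocks_inj.1 h1).1).1
  exact Subtype.ext h2

end Tor

end Cfsg.Agent.Lib.SUStem
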