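import Cfsg.Agent.Lib.PresU.OInj
import Cfsg.Agent.Lib.PresU.OSurj
import Cfsg.Agent.Lib.Schur.SLnStem2

/-!
# The relations `OHyp0` imply that a stem extension of `GO σ ι` is trivial
-/

set_option autoImplicit false
set_option linter.unusedSectionVars false
set_option linter.unusedVariables false
set_option linter.unusedSimpArgs false

namespace Cfsg.Agent.Lib.SUStem

open Cfsg Subgroup Matrix
open Cfsg.Agent.Lib.PresU Cfsg.Agent.Lib.PresSp.Mono Cfsg.Agent.Lib.PresSLn.TwoGen Cfsg.Agent.Lib.PresSp.M2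
open Cfsg.Agent.Lib.PresSU3 (GG qq)

local notation "ttG" => Cfsg.Agent.Lib.PresSU3.tt

section Hyp

variable {κ ι : Type*} [Fintype κ] [DecidableEq κ] [Fintype ι] [DecidableEq ι] {K : Type*} [Field K] {k : Type*} [Field k]
  {σ : K →+* K} {j : k →+* K} [Finite K] [Finite k] {I : Inv σ j} {s : K} {hs : s ≠ 0} {hss : σ s = -s}
  {Γ Γ' : Type*} [Group Γ] [Group Γ'] {a b : ι} {a₀ b₀ : κ} {ζ : Kˣ} {θ b₁ b₂ : K}
  {h₁ : b₁ + σ b₁ + 1 * σ 1 = 0} {h₂ : b₂ + σ b₂ + θ * σ θ = 0}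

/-- The relations are preserved by homomorphisms. -/
theorem ohyp_map {lam : SpecialLinearGroup ι K →* Γ} {M : GG σ →* Γ} {hab : a ≠ b}
    (H : OHyp0 I hs hss lam M hab ζ h₁ h₂) (f : Γ →* Γ') :
    OHyp0 I hs hss (f.comp lam) (f.comp M) hab ζ h₁ h₂ := by
  have hJ : ∀ g, MJ (f.comp lam) (f.comp M) a b a g = f (MJ lam M a b a g) := by
    intro g
    simp only [MJ_apply, MonoidHom.comp_apply, map_mul, map_inv]
  refine ⟨H.gen, H.genk, H.hθ, fun l h1 h2 g => (H.theta l h1 h2 g).map f, ?_, ?_, ?_, ?_, ?_, ?_, ?_, ?_, ?_, ?_, ?_, ?_, ?_, ?_, ?_⟩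
  · intro g
    simpa only [MonoidHom.comp_apply, map_mul, map_inv] using congrArg f (H.tw g)
  · intro g
    simpa only [hJ, MonoidHom.comp_apply, map_mul, map_inv] using congrArg f (H.f6 g)
  · intro g
    rw [hJ]
    exact (H.wa g).map f
  · simpa only [MonoidHom.comp_apply, map_mul, map_inv] using congrArg f H.r2
  · simpa only [hJ, MonoidHom.comp_apply, map_mul, map_inv] using congrArg f H.r4
  · rw [hJ]
    exact H.r8.map f
  · simpa only [hJ, MonoidHom.comp_apply, map_mul, map_inv] using congrArg f H.r11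
  · exact H.f5₁.map f
  · exact H.f5₂.map f
  · simpa only [hJ, MonoidHom.comp_apply, map_mul, map_inv] using congrArg f H.f2₁
  · simpa only [hJ, MonoidHom.comp_apply, map_mul, map_inv] using congrArg f H.f2₂
  · simpa only [hJ, MonoidHom.comp_apply, map_mul, map_inv] using congrArg f H.f1₁
  · simpa only [hJ, MonoidHom.comp_apply, map_mul, map_inv] using congrArg f H.f1₂
  · simpa only [hJ, MonoidHom.comp_apply, map_mul, map_inv] using congrArg f H.ssA
  · simpa only [hJ, MonoidHom.comp_apply, map_mul, map_inv] using congrArg f H.ssB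

/-- Moving the relations from one index set to another. -/
theorem ohyp_transfer {lam₀ : SpecialLinearGroup κ K →* Γ} {M : GG σ →* Γ} {hab₀ : a₀ ≠ b₀}
    (H : OHyp0 I hs hss lam₀ M hab₀ ζ h₁ h₂) {lam : SpecialLinearGroup ι K →* Γ} (hab : a ≠ b)
    (hT : ∀ c, lam (TT hab c) = lam₀ (TT hab₀ c)) (hT' : ∀ c, lam (TT hab.symm c) = lam₀ (TT hab₀.symm c))
    (htt : lam (tt hab ζ) = lam₀ (tt hab₀ ζ)) (hpj : lam (pj a b a) = lam₀ (pj a₀ b₀ a₀))
    (htheta : ∀ l : SpecialLinearGroup ι K, l.1 *ᵥ Pi.single b 1 = Pi.single b 1 →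
      Pi.single b 1 ᵥ* l.1 = Pi.single b 1 → ∀ g, Commute (lam l) (M g)) :
    OHyp0 I hs hss lam M hab ζ h₁ h₂ := by
  have hJ : ∀ g, MJ lam M a b a g = MJ lam₀ M a₀ b₀ a₀ g := by
    intro g
    rw [MJ_apply, MJ_apply, hpj]
  refine ⟨H.gen, H.genk, H.hθ, htheta, ?_, ?_, ?_, ?_, ?_, ?_, ?_, ?_, ?_, ?_, ?_, ?_, ?_, ?_, ?_⟩
  · intro g
    rw [htt]
    exact H.tw g
  · intro g
    rw [hJ, hJ]
    exact H.f6 g
  · intro g
    rw [hJ]
    exact H.wa g
  · rw [hT, hT]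
    exact H.r2
  · rw [hJ, htt]
    exact H.r4
  · rw [hJ]
    exact H.r8
  · rw [hJ, hT, hT']
    exact H.r11
  · rw [hT']
    exact H.f5₁
  · rw [hT']
    exact H.f5₂
  · rw [hJ, hT]
    exact H.f2₁
  · rw [hJ, hT]
    exact H.f2₂
  · rw [hJ, hT, hT]
    exact H.f1₁
  · rw [hJ, hT, hT]
    exact H.f1₂
  · rw [hJ, hT]
    exact H.ssA
  · rw [hJ, hT, hT]
    exact H.ssB

/-- The map from `GO` to matrices. -/
def mO (σ : K →+* K) (ι : Type*) [Fintype ι] [DecidableEq ι] : GO σ ι →* Matrix (Io ι) (Io ι) K where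
  toFun g := g.1.1
  map_one' := rfl
  map_mul' _ _ := rfl

/-- The relations imply that a stem extension is trivial. -/
theorem trivial_of_hypO {lam : SpecialLinearGroup ι K →* Γ} {M : GG σ →* Γ} {hab : a ≠ b}
    {π : Γ →* GO σ ι} (hπ : IsStemExtension π) (H : OHyp0 I hs hss lam M hab ζ h₁ h₂)
    (hlam : ∀ l, π (lam l) = lvO I.invol l) (hM : ∀ g, π (M g) = MS b g)
    (hT : Subgroup.closure {g : GO σ ι | ∃ w c, fJ σ (J1 ι K) w w = 0 ∧ IsTv (J1 ι K) g w c} = ⊤)
    {z : Γ} (hz : π z = 1) : z = 1 := by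
  let S : Subgroup Γ := Subgroup.closure (Set.range lam ∪ Set.range M)
  have hlS : ∀ l, lam l ∈ S := fun l => Subgroup.subset_closure (Or.inl ⟨l, rfl⟩)
  have hmS : ∀ g, M g ∈ S := fun g => Subgroup.subset_closure (Or.inr ⟨g, rfl⟩)
  let lam' : SpecialLinearGroup ι K →* S := lam.codRestrict S hlS
  let M' : GG σ →* S := M.codRestrict S hmS
  have H' : OHyp0 I hs hss lam' M' hab ζ h₁ h₂ :=
    { gen := H.gen
      genk := H.genk
      hθ := H.hθ
      theta := fun l h1 h2 g => Subtype.ext (H.theta l h1 h2 g)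
      tw := fun g => Subtype.ext (H.tw g)
      f6 := fun g => Subtype.ext (H.f6 g)
      wa := fun g => Subtype.ext (H.wa g)
      r2 := Subtype.ext H.r2
      r4 := Subtype.ext H.r4
      r8 := Subtype.ext H.r8
      r11 := Subtype.ext H.r11
      f5₁ := Subtype.ext H.f5₁
      f5₂ := Subtype.ext H.f5₂
      f2₁ := Subtype.ext H.f2₁
      f2₂ := Subtype.ext H.f2₂
      f1₁ := Subtype.ext H.f1₁
      f1₂ := Subtype.ext H.f1₂
      ssA := Subtype.ext H.ssA
      ssB := Subtype.ext H.ssB }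
  let φ₀ : S →* GO σ ι := π.comp S.subtype
  let φ : S →* Matrix (Io ι) (Io ι) K := (mO σ ι).comp φ₀
  have hgen : Subgroup.closure (Set.range lam' ∪ Set.range M') = ⊤ := by
    have h := Subgroup.closure_closure_coe_preimage (k := Set.range lam ∪ Set.range M)
    rw [← h]
    congr 1
    ext x
    constructor
    · rintro (⟨l, rfl⟩ | ⟨g, rfl⟩)
      · exact Or.inl ⟨l, rfl⟩
      · exact Or.inr ⟨g, rfl⟩
    · rintro (⟨l, hl⟩ | ⟨g, hg⟩)
      · exact Or.inl ⟨l, Subtype.ext hl⟩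
      · exact Or.inr ⟨g, Subtype.ext hg⟩
  have h1 : ∀ l, φ (lam' l) = levO σ l := by
    intro l
    change (π (lam l)).1.1 = _
    rw [hlam]
    rfl
  have h2 : ∀ g, φ (M' g) = MOm b g.1.1 := by
    intro g
    change (π (M g)).1.1 = _
    rw [hM]
    rfl
  have hinj : Function.Injective φ := H'.injectiveO φ h1 h2 hgen
  have htop : φ₀.range = ⊤ := by
    rw [eq_top_iff, ← gen_odd I.invol hab hT, Subgroup.closure_le]
    rintro _ (⟨l, rfl⟩ | ⟨g, rfl⟩)
    · exact ⟨lam' l, hlam l⟩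
    · exact ⟨M' g, hM g⟩
  have hle := Cfsg.Agent.Lib.Schur.SLnStem.commutator_le_range_of_central (σ := π) hπ.2.1 S.subtype (fun g => by
    have h1 : π g ∈ φ₀.range := by rw [htop]; trivial
    exact h1)
  obtain ⟨q, hq⟩ := hle (hπ.2.2 hz)
  have h3 : φ q = 1 := by
    change (π (q : Γ)).1.1 = 1
    have h4 : (q : Γ) = z := hq
    rw [h4, hz]
    rfl
  have h5 : q = 1 := hinj (by rw [h3, map_one])
  rw [← show (q : Γ) = z from hq, h5]
  rfl

end Hyp

end Cfsg.Agent.Lib.SUStem
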